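import Cfsg.Agent.OddOrderLocal.FrobRep
import Cfsg.Agent.H562.FpfWeights2
import Cfsg.Agent.SignalizersComponents.NoFixedGen
import Cfsg.Agent.Lib.CoprimeCommutator
import Cfsg.Agent.H851.P1
import Cfsg.Agent.OddOrderLocal.ActFitting
import Cfsg.Agent.OddOrderLocal.CNBasic
import Cfsg.Agent.S0029
import Cfsg.Agent.Lib.FrattiniBasic
import Cfsg.Agent.OddOrderLocal.FrobAct
import Cfsg.Agent.S0023
set_option linter.all false

-- part: H851/P3
section
/-!
# P3: an element acting without fixed points on a group and on a module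
-/

set_option autoImplicit false

namespace Cfsg.Agent.H851.PQ

open Module

/-- An element `x` of prime order (or trivial) normalising `Q`, with `C_Q(x) = 1` and
`C_W(x) = 0` on a `Q⟨x⟩`-invariant subspace `W` in characteristic prime to `|Q|`: then `Q` is
trivial on `W`. -/
theorem P3 {k Γ V : Type*} [Field k] [Group Γ] [Finite Γ] [AddCommGroup V] [Module k V]
    [FiniteDimensional k V] (ρ : Representation k Γ V) (Q : Subgroup Γ) (x : Γ) {e : ℕ}
    (he : e.Prime) (hxe : x ^ e = 1) (hxQ : ∀ y ∈ Q, x * y * x⁻¹ ∈ Q)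
    (hQk : (Nat.card Q : k) ≠ 0)
    (hxfix : ∀ y ∈ Q, x * y = y * x → y = 1)
    (W : Submodule k V) (hQW : ∀ y ∈ Q, ∀ w ∈ W, ρ y w ∈ W) (hxW : ∀ w ∈ W, ρ x w ∈ W)
    (hfix : ∀ w ∈ W, ρ x w = w → w = 0) : ∀ y ∈ Q, ∀ w ∈ W, ρ y w = w := by
  classical
  by_cases hx1 : x = 1
  · subst hx1
    intro y hy w _
    rw [hxfix y hy (by rw [one_mul, mul_one])]
    simp
  have hfinQ : Fintype Q := Fintype.ofFinite Q
  -- `x` normalises `Q`
  have hxN : x ∈ Subgroup.normalizer (Q : Set Γ) := by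
    have hmap : Q.map (MulAut.conj x).toMonoidHom ≤ Q := by
      rintro _ ⟨y, hy, rfl⟩
      exact hxQ y hy
    have heq : Q.map (MulAut.conj x).toMonoidHom = Q := by
      apply Subgroup.eq_of_le_of_card_ge hmap
      rw [Subgroup.card_map_of_injective (MulAut.conj x).injective]
    rw [Subgroup.mem_normalizer_iff]
    intro y
    constructor
    · intro hy
      exact hxQ y hy
    · intro hy
      rw [← heq] at hy
      obtain ⟨z, hz, hzy⟩ := hy
      have h1 : x * z * x⁻¹ = x * y * x⁻¹ := hzy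
      have h2 : z = y := by
        have := mul_right_cancel h1
        exact mul_left_cancel this
      rw [← h2]
      exact hz
  let R : Subgroup Γ := Subgroup.zpowers x
  have hRN : R ≤ Subgroup.normalizer (Q : Set Γ) := by
    rw [Subgroup.zpowers_le]
    exact hxN
  -- the subspace
  let N : V →ₗ[k] V := ∑ y : Q, ρ (y : Γ)
  have hN : ∀ v, N v = ∑ y : Q, ρ (y : Γ) v := fun v => by
    simp only [N, LinearMap.sum_apply]
  have hNQ : ∀ y ∈ Q, ∀ v, N (ρ y v) = N v := by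
    intro y hy v
    rw [hN, hN]
    refine Fintype.sum_bijective (fun z : Q => z * ⟨y, hy⟩) (Group.mulRight_bijective _) _ _
      fun z => ?_
    rw [Subgroup.coe_mul, map_mul, Module.End.mul_apply]
  have hQN : ∀ y ∈ Q, ∀ v, ρ y (N v) = N v := by
    intro y hy v
    rw [hN, map_sum]
    refine Fintype.sum_bijective (fun z : Q => ⟨y, hy⟩ * z) (Group.mulLeft_bijective _) _ _
      fun z => ?_
    rw [Subgroup.coe_mul, map_mul, Module.End.mul_apply]
  have hNR : ∀ r ∈ R, ∀ v, N (ρ r v) = ρ r (N v) := by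
    intro r hr v
    have hrN := hRN hr
    rw [Subgroup.mem_normalizer_iff] at hrN
    rw [hN, hN, map_sum]
    have hinv : ∀ z : Q, r⁻¹ * (z : Γ) * r ∈ Q := by
      intro z
      rw [hrN]
      have : r * (r⁻¹ * (z : Γ) * r) * r⁻¹ = z := by group
      rw [this]
      exact z.2
    refine Fintype.sum_bijective (fun z : Q => (⟨r⁻¹ * (z : Γ) * r, hinv z⟩ : Q)) ?_ _ _
      fun z => ?_
    · constructor
      · intro z z' h
        have h1 : r⁻¹ * (z : Γ) * r = r⁻¹ * (z' : Γ) * r := congrArg Subtype.val h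
        have h2 := mul_right_cancel h1
        exact Subtype.ext (mul_left_cancel h2)
      · intro z
        refine ⟨⟨r * (z : Γ) * r⁻¹, (hrN z).mp z.2⟩, ?_⟩
        apply Subtype.ext
        change r⁻¹ * (r * (z : Γ) * r⁻¹) * r = z
        group
    · rw [← Module.End.mul_apply, ← Module.End.mul_apply, ← map_mul, ← map_mul]
      congr 2
      change (z : Γ) * r = r * (r⁻¹ * (z : Γ) * r)
      group
  have hxWR : ∀ r ∈ R, ∀ w ∈ W, ρ r w ∈ W := by
    intro r hr w hw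
    have hr' : r ∈ Submonoid.powers x := mem_powers_iff_mem_zpowers.mpr hr
    obtain ⟨n, rfl⟩ := hr'
    have : ∀ n : ℕ, ρ (x ^ n) w ∈ W := by
      intro n
      induction n with
      | zero => simpa using hw
      | succ n ih =>
        rw [pow_succ', map_mul, Module.End.mul_apply]
        exact hxW _ ih
    exact this n
  let W' : Submodule k V := W ⊓ LinearMap.ker N
  -- the representations on `W'`
  have hW'Q : ∀ y ∈ Q, ∀ w ∈ W', ρ y w ∈ W' := by
    intro y hy w hw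
    refine ⟨hQW y hy w hw.1, ?_⟩
    change N (ρ y w) = 0
    rw [hNQ y hy]
    exact hw.2
  have hW'R : ∀ r ∈ R, ∀ w ∈ W', ρ r w ∈ W' := by
    intro r hr w hw
    refine ⟨hxWR r hr w hw.1, ?_⟩
    change N (ρ r w) = 0
    rw [hNR r hr]
    have : N w = 0 := hw.2
    rw [this, map_zero]
  let ρ' : Representation k Q W' :=
    { toFun := fun y => (ρ (y : Γ)).restrict (hW'Q y y.2)
      map_one' := by
        ext w
        simp
      map_mul' := by
        intro y z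
        ext w
        simp }
  let τ' : Representation k R W' :=
    { toFun := fun y => (ρ (y : Γ)).restrict (hW'R y y.2)
      map_one' := by
        ext w
        simp
      map_mul' := by
        intro y z
        ext w
        simp }
  let σ : R →* MulAut Q := Q.normalizerMonoidHom.comp (Subgroup.inclusion hRN)
  have hσ : ∀ (r : R) (y : Q), ((σ r y : Q) : Γ) = (r : Γ) * y * (r : Γ)⁻¹ := fun r y => rfl
  have hcompat : ∀ (r : R) (y : Q) (v : W'), τ' r (ρ' y v) = ρ' (σ r y) (τ' r v) := by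
    intro r y v
    apply Subtype.ext
    change ρ (r : Γ) (ρ (y : Γ) v) = ρ ((σ r y : Q) : Γ) (ρ (r : Γ) v)
    rw [hσ, ← Module.End.mul_apply, ← Module.End.mul_apply, ← map_mul, ← map_mul]
    congr 2
    group
  have hfixQ : ∀ v : W', (∀ y : Q, ρ' y v = v) → v = 0 := by
    intro v hv
    have h1 : N (v : V) = 0 := v.2.2
    have h2 : N (v : V) = (Nat.card Q : k) • (v : V) := by
      rw [hN, Nat.card_eq_fintype_card, Nat.cast_smul_eq_nsmul, ← Finset.card_univ,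
        ← Finset.sum_const]
      refine Finset.sum_congr rfl fun y _ => ?_
      exact congrArg Subtype.val (hv y)
    rw [h1] at h2
    apply Subtype.ext
    exact (smul_eq_zero.mp h2.symm).resolve_left hQk
  have hord : orderOf x = e := by
    haveI : Fact e.Prime := ⟨he⟩
    exact orderOf_eq_prime hxe hx1
  have hfpf : ∀ r : R, r ≠ 1 → ∀ y : Q, σ r y = y → y = 1 := by
    intro r hr y hy
    have h1 : (r : Γ) * y * (r : Γ)⁻¹ = y := by
      rw [← hσ]
      exact congrArg Subtype.val hy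
    have h2 : Commute (r : Γ) (y : Γ) := by
      have := eq_mul_of_mul_inv_eq h1
      exact this
    -- `x` is a power of `r`
    have h3 : x ∈ Subgroup.zpowers (r : Γ) := by
      have hcard : Nat.card R = e := by
        rw [Nat.card_zpowers, hord]
      have hr' : (r : Γ) ≠ 1 := fun h => hr (Subtype.ext h)
      have h4 : Nat.card (Subgroup.zpowers (r : Γ)) ∣ Nat.card R :=
        Subgroup.card_dvd_of_le ((Subgroup.zpowers_le).mpr r.2)
      rw [hcard] at h4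
      rcases (Nat.dvd_prime he).mp h4 with h5 | h5
      · exfalso
        apply hr'
        rw [Nat.card_zpowers] at h5
        exact orderOf_eq_one_iff.mp h5
      · have h6 : Subgroup.zpowers (r : Γ) = R := by
          apply Subgroup.eq_of_le_of_card_ge ((Subgroup.zpowers_le).mpr r.2)
          rw [h5, hcard]
        rw [h6]
        exact Subgroup.mem_zpowers x
    obtain ⟨m, hm⟩ := h3
    have h7 : Commute x (y : Γ) := by
      rw [← hm]
      exact h2.zpow_left m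
    exact Subtype.ext (hxfix y y.2 h7)
  obtain ⟨hdim, -⟩ := OddOrderLocal.FrobRep.finrank_eq hQk ρ' τ' σ hcompat hfixQ hfpf
  have hinv : τ'.invariants = ⊥ := by
    rw [eq_bot_iff]
    intro v hv
    rw [Representation.mem_invariants] at hv
    have h1 := congrArg Subtype.val (hv ⟨x, Subgroup.mem_zpowers x⟩)
    have h2 : ρ x (v : V) = v := h1
    have h3 := hfix v v.2.1 h2
    rw [Submodule.mem_bot]
    exact Subtype.ext h3
  rw [hinv, finrank_bot, mul_zero] at hdim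
  have hW'0 : ∀ w ∈ W', w = 0 := by
    have : W' = ⊥ := Submodule.finrank_eq_zero.mp hdim
    intro w hw
    rw [this] at hw
    exact hw
  intro y hy w hw
  have h1 : (Nat.card Q : k) • w - N w ∈ W' := by
    refine ⟨W.sub_mem (W.smul_mem _ hw) ?_, ?_⟩
    · rw [hN]
      exact Submodule.sum_mem _ fun z _ => hQW z z.2 w hw
    · change N _ = 0
      have h2 : N (N w) = (Nat.card Q : k) • N w := by
        rw [hN (N w), Nat.card_eq_fintype_card, Nat.cast_smul_eq_nsmul, ← Finset.card_univ,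
          ← Finset.sum_const]
        exact Finset.sum_congr rfl fun z _ => hQN z z.2 w
      rw [map_sub, map_smul, h2, sub_self]
  have h2 := hW'0 _ h1
  have h3 : (Nat.card Q : k) • w = N w := sub_eq_zero.mp h2
  have h4 : (Nat.card Q : k) • ρ y w = (Nat.card Q : k) • w := by
    rw [← map_smul, h3, hQN y hy]
  exact smul_right_injective V hQk h4

end Cfsg.Agent.H851.PQ
end

-- part: H562/FpfCore
section
/-!
# The minimal situation

`Γ = Q T F H`, `Q` a normal `q`-group, `T` a `t`-group, `F H` a group of order `f e` with `e ∣ f - 1`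
acting on `Q`, `T` and on the representation space without nontrivial fixed points.
-/

set_option autoImplicit false

namespace Cfsg.Agent.H562.FpfCore

open Module Cfsg.Agent.OddOrderLocal.Thm34Weights Cfsg.Agent.H562.FpfWeights

attribute [local instance] wtAction

/-- the minimal situation -/
structure Core {k : Type*} [Field k] {Γ : Type*} [Group Γ] {V : Type*} [AddCommGroup V] [Module k V]
    (ρ : Representation k Γ V) (Q T F H : Subgroup Γ) (q t : ℕ) : Prop where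
  hq : q.Prime
  ht : t.Prime
  hqt : q ≠ t
  hQ : IsPGroup q Q
  hT : IsPGroup t T
  hF : (Nat.card F).Prime
  hH : (Nat.card H).Prime
  hef : Nat.card H ∣ Nat.card F - 1
  hHF : ∀ h ∈ H, ∀ a ∈ F, h * a * h⁻¹ ∈ F
  hFT : ∀ a ∈ F, ∀ y ∈ T, a * y * a⁻¹ ∈ T
  hHT : ∀ a ∈ H, ∀ y ∈ T, a * y * a⁻¹ ∈ T
  hqf : q ≠ Nat.card F
  hqe : q ≠ Nat.card H
  htf : t ≠ Nat.card F
  hte : t ≠ Nat.card H
  hqk : (q : k) ≠ 0
  hek : (Nat.card H : k) ≠ 0
  hfk : (Nat.card F : k) ≠ 0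
  hCQ : ∀ x ∈ Q, (∀ a ∈ F, a * x = x * a) → (∀ a ∈ H, a * x = x * a) → x = 1
  hCT : ∀ x ∈ T, (∀ a ∈ F, a * x = x * a) → (∀ a ∈ H, a * x = x * a) → x = 1
  hV : ∀ v : V, (∀ a ∈ F, ρ a v = v) → (∀ a ∈ H, ρ a v = v) → v = 0
  hgen : Q ⊔ (T ⊔ (F ⊔ H)) = ⊤
  hfaith : ∀ y ∈ Q, (∀ v, ρ y v = v) → y = 1
  hQT : ⁅Q, T⁆ = Q
  hQ1 : Q ≠ ⊥
  hminT : ∀ T₁ : Subgroup Γ, T₁ ≤ T → T₁ ≠ T → (∀ a ∈ F, ∀ y ∈ T₁, a * y * a⁻¹ ∈ T₁) →
    (∀ a ∈ H, ∀ y ∈ T₁, a * y * a⁻¹ ∈ T₁) → T₁ ≤ Subgroup.centralizer (Q : Set Γ)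
  hminQ : ∀ Q₁ : Subgroup Γ, Q₁ ≤ Q → Q₁ ≠ Q → Q₁.Normal → T ≤ Subgroup.centralizer (Q₁ : Set Γ)

theorem not_dvd_card {Γ : Type*} [Group Γ] [Finite Γ] {q p : ℕ} (hq : q.Prime) (hp : p.Prime)
    (hqp : q ≠ p) {Q : Subgroup Γ} (hQ : IsPGroup q Q) {Q₁ : Subgroup Γ} (h : Q₁ ≤ Q) :
    ¬ p ∣ Nat.card Q₁ := by
  intro h1
  have : Fact q.Prime := ⟨hq⟩
  obtain ⟨n, hn⟩ := IsPGroup.iff_card.1 hQ
  have h2 := (h1.trans (Subgroup.card_dvd_of_le h))
  rw [hn] at h2
  exact hqp ((Nat.prime_dvd_prime_iff_eq hp hq).1 (hp.dvd_of_dvd_pow h2)).symm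

theorem cast_ne_zero {k : Type*} [Field k] {Γ : Type*} [Group Γ] [Finite Γ] {q : ℕ} (hq : q.Prime)
    (hqk : (q : k) ≠ 0) {Q : Subgroup Γ} (hQ : IsPGroup q Q) {Q₁ : Subgroup Γ} (h : Q₁ ≤ Q) :
    (Nat.card Q₁ : k) ≠ 0 := by
  have : Fact q.Prime := ⟨hq⟩
  obtain ⟨n, hn⟩ := IsPGroup.iff_card.1 (hQ.to_le h)
  rw [hn, Nat.cast_pow]
  exact pow_ne_zero _ hqk

theorem le_normalizer_of_conj {Γ : Type*} [Group Γ] {A T : Subgroup Γ}
    (h : ∀ a ∈ A, ∀ y ∈ T, a * y * a⁻¹ ∈ T) : A ≤ Subgroup.normalizer (T : Set Γ) := by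
  intro a ha
  rw [Subgroup.mem_normalizer_iff]
  intro y
  refine ⟨fun hy => h a ha y hy, fun hy => ?_⟩
  have := h a⁻¹ (inv_mem ha) _ hy
  have h2 : a⁻¹ * (a * y * a⁻¹) * a⁻¹⁻¹ = y := by group
  rwa [h2] at this

theorem conj_sup {Γ : Type*} [Group Γ] {A B : Subgroup Γ} {h : Γ} (hA : ∀ y ∈ A, h * y * h⁻¹ ∈ A)
    (hB : ∀ y ∈ B, h * y * h⁻¹ ∈ B) : ∀ y ∈ A ⊔ B, h * y * h⁻¹ ∈ A ⊔ B := by
  have h1 : A ⊔ B ≤ (A ⊔ B).comap (MulAut.conj h).toMonoidHom := by
    apply sup_le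
    · intro y hy
      exact Subgroup.mem_sup_left (hA y hy)
    · intro y hy
      exact Subgroup.mem_sup_right (hB y hy)
  intro y hy
  exact h1 hy

theorem commutator_ne {Γ : Type*} [Group Γ] (K : Subgroup Γ) [Group.IsSolvable K] (hK : K ≠ ⊥) :
    ⁅K, K⁆ ≠ K := by
  have hn : Nontrivial K := (Subgroup.nontrivial_iff_ne_bot K).2 hK
  intro h
  have h1 := Group.IsSolvable.commutator_lt_top_of_nontrivial K
  apply h1.ne
  rw [commutator_def, ← Subgroup.map_subtype_inj, Subgroup.map_commutator, ← MonoidHom.range_eq_map,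
    Subgroup.range_subtype]
  exact h

namespace Core

variable {k : Type*} [Field k] {Γ : Type*} [Group Γ] [Finite Γ] {V : Type*} [AddCommGroup V] [Module k V]
variable {ρ : Representation k Γ V} {Q T F H : Subgroup Γ} {q t : ℕ}

omit [Finite Γ] in
theorem center_comm (Q : Subgroup Γ) : ∀ a ∈ Q ⊓ Subgroup.centralizer (Q : Set Γ),
    ∀ b ∈ Q ⊓ Subgroup.centralizer (Q : Set Γ), a * b = b * a := by
  intro a ha b hb
  exact Subgroup.mem_centralizer_iff.1 hb.2 a ha.1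

theorem solvable_of_le (hq : q.Prime) (hQ : IsPGroup q Q) {Q₁ : Subgroup Γ} (h : Q₁ ≤ Q) :
    Group.IsSolvable Q₁ := by
  have : Fact q.Prime := ⟨hq⟩
  have := (hQ.to_le h).isNilpotent
  infer_instance

/-- the situation for a commutative normal subgroup of `Q` -/
theorem sit (c : Core ρ Q T F H q t) {Z : Subgroup Γ} (hZn : Z.Normal) (hZQ : Z ≤ Q)
    (hZ : ∀ a ∈ Z, ∀ b ∈ Z, a * b = b * a) : Sit ρ Z T F H where
  hZn := hZn
  hZ := hZ
  hZk := cast_ne_zero c.hq c.hqk c.hQ hZQ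
  hF := c.hF
  hH := c.hH
  hef := c.hef
  hHF := c.hHF
  hFT := c.hFT
  hHT := c.hHT
  hFZ := not_dvd_card c.hq c.hF c.hqf c.hQ hZQ
  hHZ := not_dvd_card c.hq c.hH c.hqe c.hQ hZQ
  hFTc := not_dvd_card c.ht c.hF c.htf c.hT le_rfl
  hHTc := not_dvd_card c.ht c.hH c.hte c.hT le_rfl
  hTs := solvable_of_le c.ht c.hT le_rfl
  hCZ := fun x hx => c.hCQ x (hZQ hx)
  hV := c.hV

omit [Finite Γ] in
theorem hFnT (c : Core ρ Q T F H q t) : F ≤ Subgroup.normalizer (T : Set Γ) := le_normalizer_of_conj c.hFT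

omit [Finite Γ] in
theorem hHnT (c : Core ρ Q T F H q t) : H ≤ Subgroup.normalizer (T : Set Γ) := le_normalizer_of_conj c.hHT

omit [Finite Γ] in
theorem hHnF (c : Core ρ Q T F H q t) : H ≤ Subgroup.normalizer (F : Set Γ) := le_normalizer_of_conj c.hHF

omit [Finite Γ] in
/-- the decomposition of the elements of `Γ` -/
theorem dec (c : Core ρ Q T F H q t) [Q.Normal] (g : Γ) :
    ∃ a ∈ F, ∃ x ∈ T, ∃ h ∈ H, ∃ y ∈ Q, g = a * x * h * y := by
  have h1 : g ∈ (((T ⊔ (F ⊔ H)) ⊔ Q : Subgroup Γ) : Set Γ) := by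
    rw [sup_comm, c.hgen]; trivial
  rw [Subgroup.coe_mul_of_left_le_normalizer_right _ Q (le_top.trans_eq Q.normalizer_eq_top.symm)] at h1
  obtain ⟨u, hu, y, hy, rfl⟩ := h1
  rw [← sup_assoc] at hu
  have hHn : H ≤ Subgroup.normalizer ((T ⊔ F : Subgroup Γ) : Set Γ) :=
    le_normalizer_of_conj (fun h hh => conj_sup (c.hHT h hh) (c.hHF h hh))
  rw [Subgroup.coe_mul_of_right_le_normalizer_left _ H hHn] at hu
  obtain ⟨w, hw, h, hh, rfl⟩ := hu
  rw [SetLike.mem_coe, sup_comm] at hw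
  rw [← SetLike.mem_coe, Subgroup.coe_mul_of_left_le_normalizer_right F T c.hFnT] at hw
  obtain ⟨a, ha, x, hx, rfl⟩ := hw
  exact ⟨a, ha, x, hx, h, hh, y, hy, rfl⟩

omit [Finite Γ] in
theorem smul_eq_of_centralizer {Z : Subgroup Γ} [Z.Normal] {y : Γ}
    (hy : ∀ z ∈ Z, y * z = z * y) (ψ : Z → k) : y • ψ = ψ := by
  funext z
  rw [wt_smul_def]
  congr 1
  apply Subtype.ext
  rw [MulAut.conjNormal_apply]
  have := hy z z.2
  rw [inv_inv, mul_assoc, ← this, ← mul_assoc, inv_mul_cancel, one_mul]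

omit [Finite Γ] in
theorem hdec (c : Core ρ Q T F H q t) [Q.Normal] {Z : Subgroup Γ} [Z.Normal]
    (hZ : ∀ y ∈ Q, ∀ z ∈ Z, y * z = z * y) (g : Γ) :
    ∃ a ∈ F, ∃ x ∈ T, ∃ h ∈ H, ∀ ψ : Z → k, g • ψ = a • x • h • ψ := by
  obtain ⟨a, ha, x, hx, h, hh, y, hy, rfl⟩ := c.dec g
  refine ⟨a, ha, x, hx, h, hh, ?_⟩
  intro ψ
  rw [mul_smul, smul_eq_of_centralizer (hZ y hy), mul_smul, mul_smul]

omit [Finite Γ] in
theorem card_F_ne_two (c : Core ρ Q T F H q t) : Nat.card F ≠ 2 := by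
  intro h
  have h1 := c.hef
  rw [h] at h1
  exact c.hH.one_lt.ne' (Nat.dvd_one.1 h1)

/-- the elements of `Q` acting trivially on all weight spaces in the orbit of `χ` -/
def dsub (ρ : Representation k Γ V) (Q : Subgroup Γ) [Q.Normal] {Z : Subgroup Γ} [Z.Normal] (χ : Z → k) :
    Subgroup Γ where
  carrier := {y | y ∈ Q ∧ ∀ g : Γ, ∀ w ∈ wt ρ Z (g • χ), ρ y w = w}
  mul_mem' := by
    rintro a b ⟨ha, ha'⟩ ⟨hb, hb'⟩
    refine ⟨Q.mul_mem ha hb, fun g w hw => ?_⟩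
    rw [map_mul, End.mul_apply, hb' g w hw, ha' g w hw]
  one_mem' := ⟨Q.one_mem, fun g w _ => by rw [map_one, End.one_apply]⟩
  inv_mem' := by
    rintro a ⟨ha, ha'⟩
    refine ⟨Q.inv_mem ha, fun g w hw => ?_⟩
    conv_lhs => rw [← ha' g w hw]
    rw [← End.mul_apply, ← map_mul, inv_mul_cancel, map_one, End.one_apply]

omit [Finite Γ] in
theorem mem_dsub {Q : Subgroup Γ} [Q.Normal] {Z : Subgroup Γ} [Z.Normal] {χ : Z → k} {y : Γ} :
    y ∈ dsub ρ Q χ ↔ y ∈ Q ∧ ∀ g : Γ, ∀ w ∈ wt ρ Z (g • χ), ρ y w = w := Iff.rfl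

omit [Finite Γ] in
theorem dsub_le {Q : Subgroup Γ} [Q.Normal] {Z : Subgroup Γ} [Z.Normal] {χ : Z → k} :
    dsub ρ Q χ ≤ Q := fun _ hy => hy.1

omit [Finite Γ] in
theorem dsub_normal {Q : Subgroup Γ} [Q.Normal] {Z : Subgroup Γ} [Z.Normal] {χ : Z → k} :
    (dsub ρ Q χ).Normal := by
  constructor
  rintro y ⟨hy, hy'⟩ g
  refine ⟨Subgroup.Normal.conj_mem inferInstance y hy g, ?_⟩
  intro g' w hw
  have h1 := smul_mem_wt hw g⁻¹
  rw [← mul_smul] at h1
  rw [map_mul, map_mul, End.mul_apply, End.mul_apply, hy' _ _ h1, ← End.mul_apply, ← map_mul,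
    mul_inv_cancel, map_one, End.one_apply]

omit [Finite Γ] in
theorem dsub_ne {Q : Subgroup Γ} [Q.Normal] {Z : Subgroup Γ} [Z.Normal] (hZQ : Z ≤ Q) {χ : Z → k}
    (hχ : wt ρ Z χ ≠ ⊥) (hχ1 : ∃ z, χ z ≠ 1) : dsub ρ Q χ ≠ Q := by
  intro h
  obtain ⟨z, hz⟩ := hχ1
  obtain ⟨v, hv, hv0⟩ := Submodule.exists_mem_ne_zero_of_ne_bot hχ
  have h1 : (z : Γ) ∈ dsub ρ Q χ := by rw [h]; exact hZQ z.2
  have h2 := h1.2 1 v (by rw [one_smul]; exact hv)
  rw [mem_wt.1 hv z] at h2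
  have h9 : (χ z - 1) • v = 0 := by rw [sub_smul, one_smul, h2, sub_self]
  rcases smul_eq_zero.1 h9 with h | h
  · exact hz (sub_eq_zero.1 h)
  · exact hv0 h

omit [Finite Γ] in
theorem T_dsub (c : Core ρ Q T F H q t) [Q.Normal] {Z : Subgroup Γ} [Z.Normal] (hZQ : Z ≤ Q) {χ : Z → k}
    (hχ : wt ρ Z χ ≠ ⊥) (hχ1 : ∃ z, χ z ≠ 1) :
    T ≤ Subgroup.centralizer ((dsub ρ Q χ : Subgroup Γ) : Set Γ) :=
  c.hminQ _ dsub_le (dsub_ne hZQ hχ hχ1) dsub_normal

theorem hcopTQ (c : Core ρ Q T F H q t) : (Nat.card T).Coprime (Nat.card Q) := by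
  have : Fact q.Prime := ⟨c.hq⟩
  have : Fact t.Prime := ⟨c.ht⟩
  exact IsPGroup.coprime_card_of_ne t q c.hqt.symm T Q c.hT c.hQ

/-- a proper `A`-invariant subgroup of `T` centralises `Q`, so `T` is not the join of two such -/
theorem T_or (c : Core ρ Q T F H q t) {T₁ T₂ : Subgroup Γ} (h1 : T₁ ≤ T)
    (h1F : ∀ a ∈ F, ∀ y ∈ T₁, a * y * a⁻¹ ∈ T₁) (h1H : ∀ a ∈ H, ∀ y ∈ T₁, a * y * a⁻¹ ∈ T₁)
    (h : T₁ ⊔ T₂ = T) (h2 : T₂ ≤ Subgroup.centralizer (Q : Set Γ)) : T₁ = T := by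
  by_contra hne
  have h3 := c.hminT T₁ h1 hne h1F h1H
  have h4 : T ≤ Subgroup.centralizer (Q : Set Γ) := by
    rw [← h]; exact sup_le h3 h2
  apply c.hQ1
  rw [← c.hQT, Subgroup.commutator_eq_bot_iff_le_centralizer]
  exact Subgroup.le_centralizer_iff.1 h4

/-- `Q` has no nontrivial `T`-fixed points modulo its derived subgroup -/
theorem CT (c : Core ρ Q T F H q t) [Q.Normal] :
    Q ⊓ Subgroup.centralizer (T : Set Γ) ≤ ⁅Q, Q⁆ := by
  have hn : (⁅Q, Q⁆ : Subgroup Γ).Normal := inferInstance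
  set φ := QuotientGroup.mk' (⁅Q, Q⁆ : Subgroup Γ) with hφ
  have hcomm : IsMulCommutative (Q.map φ) := by
    rw [← Subgroup.le_centralizer_iff_isMulCommutative, ← Subgroup.commutator_eq_bot_iff_le_centralizer]
    rw [← Subgroup.map_commutator, Subgroup.map_eq_bot_iff, hφ, QuotientGroup.ker_mk']
  have hcop : (Nat.card (T.map φ)).Coprime (Nat.card (Q.map φ)) := by
    apply Nat.Coprime.coprime_dvd_left (Subgroup.card_map_dvd _ φ)
    apply Nat.Coprime.coprime_dvd_right (Subgroup.card_map_dvd _ φ)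
    exact c.hcopTQ
  have hnorm : T.map φ ≤ Subgroup.normalizer (Q.map φ : Set (Γ ⧸ (⁅Q, Q⁆ : Subgroup Γ))) := by
    have : (Q.map φ).Normal := Subgroup.Normal.map inferInstance φ (QuotientGroup.mk'_surjective _)
    rw [Subgroup.normalizer_eq_top]; exact le_top
  have h1 := (Cfsg.Agent.S0055.result (T.map φ) (Q.map φ) hnorm hcop).1
  rw [← Subgroup.map_commutator, c.hQT] at h1
  rintro y ⟨hyQ, hyT⟩
  have h2 : φ y ∈ (Q.map φ ⊓ Subgroup.centralizer (T.map φ : Set (Γ ⧸ (⁅Q, Q⁆ : Subgroup Γ)))) ⊓ Q.map φ := by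
    refine ⟨⟨⟨y, hyQ, rfl⟩, ?_⟩, ⟨y, hyQ, rfl⟩⟩
    show φ y ∈ Subgroup.centralizer _
    rw [Subgroup.mem_centralizer_iff]
    rintro _ ⟨x, hx, rfl⟩
    rw [← map_mul, ← map_mul, Subgroup.mem_centralizer_iff.1 hyT x hx]
  rw [h1, Subgroup.mem_bot] at h2
  exact (QuotientGroup.eq_one_iff _).1 h2

/-- `Q` has no nontrivial `T`-fixed points modulo a subgroup containing the derived subgroup -/
theorem CT' (c : Core ρ Q T F H q t) [Q.Normal] {D : Subgroup Γ} (hD : ⁅Q, Q⁆ ≤ D) (hDQ : D ≤ Q)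
    (hTD : ∀ x ∈ T, ∀ y ∈ D, x * y * x⁻¹ ∈ D) :
    ∀ y ∈ Q, (∀ x ∈ T, y⁻¹ * (x * y * x⁻¹) ∈ D) → y ∈ D := by
  intro y hy hyT
  have hQD : Q ≤ Subgroup.normalizer (D : Set Γ) := by
    apply le_normalizer_of_conj
    intro a ha b hb
    have h1 : a * b * a⁻¹ = (a * b * a⁻¹ * b⁻¹) * b := by group
    rw [h1]
    exact D.mul_mem (hD (Subgroup.commutator_mem_commutator ha (hDQ hb))) hb
  obtain ⟨z, hz, hyz⟩ := Cfsg.Agent.S0022.result T Q (le_top.trans_eq Q.normalizer_eq_top.symm)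
    c.hcopTQ
    (Or.inr (solvable_of_le c.hq c.hQ le_rfl)) D hDQ hQD (le_normalizer_of_conj hTD) y hy (by
      intro x hx
      have h1 : x * y * x⁻¹ * y⁻¹ = y * (y⁻¹ * (x * y * x⁻¹)) * y⁻¹ := by group
      rw [h1]
      exact ((Subgroup.mem_normalizer_iff.1 (hQD hy)) _).1 (hyT x hx))
  have h2 : z ∈ D := hD (c.CT hz)
  have h3 : y = z * (y⁻¹ * z)⁻¹ := by group
  rw [h3]
  exact D.mul_mem h2 (D.inv_mem hyz)

/-- the restriction of a representation to a subgroup and an invariant subspace -/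
def resRep (ρ : Representation k Γ V) (S : Subgroup Γ) (W : Submodule k V)
    (h : ∀ g ∈ S, ∀ w ∈ W, ρ g w ∈ W) : Representation k S W where
  toFun g := (ρ g).restrict (h g g.2)
  map_one' := by
    ext w
    show ρ ((1 : S) : Γ) w = w
    rw [Subgroup.coe_one, map_one, End.one_apply]
  map_mul' a b := by
    ext w
    show ρ ((a * b : S) : Γ) w = ρ a (ρ b w)
    rw [Subgroup.coe_mul, map_mul, End.mul_apply]

omit [Finite Γ] in
theorem resRep_apply (ρ : Representation k Γ V) (S : Subgroup Γ) (W : Submodule k V)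
    (h : ∀ g ∈ S, ∀ w ∈ W, ρ g w ∈ W) (g : S) (w : W) : ((resRep ρ S W h g w : W) : V) = ρ g w := rfl

omit [Finite Γ] in
theorem stab_mem {Z : Subgroup Γ} [Z.Normal] {φ : Z → k} {g : Γ} (hg : g • φ = φ) {w : V}
    (hw : w ∈ wt ρ Z φ) : ρ g w ∈ wt ρ Z φ := by
  have := smul_mem_wt hw g
  rwa [hg] at this

/-- if `F` fixes the nontrivial weight `φ` of a central subgroup of `Q`, then `[Q, F]` is trivial on the
weight space -/
theorem commF (c : Core ρ Q T F H q t) [IsAlgClosed k] [FiniteDimensional k V] [Q.Normal]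
    {Z : Subgroup Γ} [Z.Normal] (hZQ : Z ≤ Q)
    (hZ : ∀ y ∈ Q, ∀ z ∈ Z, y * z = z * y) {φ : Z → k} (hφ1 : ∃ z, φ z ≠ 1)
    (hF : ∀ a ∈ F, a • φ = φ) : ∀ y ∈ Q, ∀ a ∈ F, ∀ w ∈ wt ρ Z φ, ρ (a * y) w = ρ (y * a) w := by
  have s := c.sit inferInstance hZQ (fun a ha b hb => hZ a (hZQ ha) b hb)
  obtain ⟨x, hx, hx1⟩ := exists_ne_one_of_prime F c.hF
  let S := MulAction.stabilizer Γ φ
  have hSW : ∀ g ∈ S, ∀ w ∈ wt ρ Z φ, ρ g w ∈ wt ρ Z φ := fun g hg w hw => stab_mem hg hw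
  have hQS : Q ≤ S := fun y hy => smul_eq_of_centralizer (hZ y hy) φ
  have hxS : x ∈ S := hF x hx
  have hK : Nat.card (Q.subgroupOf S) = Nat.card Q :=
    Nat.card_congr (Subgroup.subgroupOfEquivOfLe hQS).toEquiv
  have hQs := solvable_of_le c.hq c.hQ (le_refl Q)
  have h1 := Cfsg.Agent.SignalizersComponents.NoFixedGen.comm_of_no_fixed_algClosed
    (resRep ρ S (wt ρ Z φ) hSW) (Q.subgroupOf S) ⟨x, hxS⟩ c.hF c.card_F_ne_two
    (Subtype.ext (pow_card_eq_one_of_mem F hx))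
    (by
      rintro ⟨y, hyS⟩ hy
      exact Subgroup.Normal.conj_mem inferInstance y hy x)
    (Group.isSolvable_of_isSolvable_injective (f := (Subgroup.subgroupOfEquivOfLe hQS).toMonoidHom)
      (Subgroup.subgroupOfEquivOfLe hQS).injective)
    (by
      rw [hK]
      intro h
      exact not_dvd_card c.hq c.hH c.hqe c.hQ le_rfl ((c.hef.trans (dvd_pow_self _ two_ne_zero)).trans h))
    (by
      rw [hK]
      exact not_dvd_card c.hq c.hF c.hqf c.hQ le_rfl)
    (by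
      rw [hK]
      exact cast_ne_zero c.hq c.hqk c.hQ le_rfl)
    c.hfk
    (by
      rintro ⟨w, hw⟩ hxw
      apply Subtype.ext
      apply s.fixF hφ1 hF hw
      intro a ha
      have hbz := mem_zpowers_of_prime F c.hF hx hx1 ha
      rw [← mem_powers_iff_mem_zpowers] at hbz
      obtain ⟨n, rfl⟩ := hbz
      have hxw' : ρ x w = w := congrArg Subtype.val hxw
      have h6 : ∀ n : ℕ, ρ (x ^ n) w = w := by
        intro n
        induction n with
        | zero => rw [pow_zero, map_one, End.one_apply]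
        | succ n ih => rw [pow_succ, map_mul, End.mul_apply, hxw', ih]
      exact h6 n)
  have h2 : ∀ y ∈ Q, ∀ w ∈ wt ρ Z φ, ρ (x * y) w = ρ (y * x) w := by
    intro y hy w hw
    have h3 := h1 ⟨y, hQS hy⟩ hy
    have h4 := congrArg (fun f => ((f ⟨w, hw⟩ : wt ρ Z φ) : V)) h3
    exact h4
  intro y hy a ha w hw
  have hbz := mem_zpowers_of_prime F c.hF hx hx1 ha
  rw [← mem_powers_iff_mem_zpowers] at hbz
  obtain ⟨n, rfl⟩ := hbz
  have h6 : ∀ n : ℕ, ∀ w ∈ wt ρ Z φ, ρ (x ^ n * y) w = ρ (y * x ^ n) w := by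
    intro n
    induction n with
    | zero => intro w _; rw [pow_zero, one_mul, mul_one]
    | succ n ih =>
      intro w hw
      have h7 : ρ x w ∈ wt ρ Z φ := stab_mem (hF x hx) hw
      rw [pow_succ, mul_assoc, map_mul, End.mul_apply, h2 y hy w hw, ← End.mul_apply, ← map_mul,
        ← mul_assoc, map_mul _ (x ^ n * y), End.mul_apply, ih _ h7, ← End.mul_apply, ← map_mul, mul_assoc]
  exact h6 n w hw

/-- a `Γ`-normal proper subgroup of `Q` together with the derived subgroup is proper -/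
theorem sup_ne (c : Core ρ Q T F H q t) [Q.Normal] {D : Subgroup Γ} [D.Normal] (hD : D ≤ Q) (hDQ : D ≠ Q) :
    D ⊔ ⁅Q, Q⁆ ≠ Q := by
  intro h
  have h1 : ⁅Q.map (QuotientGroup.mk' D), Q.map (QuotientGroup.mk' D)⁆ = Q.map (QuotientGroup.mk' D) := by
    rw [← Subgroup.map_commutator]
    conv_rhs => rw [← h, Subgroup.map_sup]
    have : D.map (QuotientGroup.mk' D) = ⊥ := by
      rw [Subgroup.map_eq_bot_iff, QuotientGroup.ker_mk']
    rw [this, bot_sup_eq]
  have h2 : Q.map (QuotientGroup.mk' D) ≠ ⊥ := by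
    intro h3
    rw [Subgroup.map_eq_bot_iff, QuotientGroup.ker_mk'] at h3
    exact hDQ (le_antisymm hD h3)
  have hQs := solvable_of_le c.hq c.hQ (le_refl Q)
  have h3 : Group.IsSolvable (Q.map (QuotientGroup.mk' D)) := by
    exact Group.isSolvable_of_surjective (f := (QuotientGroup.mk' D).subgroupMap Q)
      ((QuotientGroup.mk' D).subgroupMap_surjective Q)
  exact commutator_ne _ h2 h1

/-- the fixed points of `A` on `Q` modulo an invariant subgroup -/
theorem fixA (c : Core ρ Q T F H q t) [Q.Normal] {D : Subgroup Γ} (hDQ : D ≤ Q)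
    (hQD : ∀ a ∈ Q, ∀ y ∈ D, a * y * a⁻¹ ∈ D)
    (hFD : ∀ a ∈ F, ∀ y ∈ D, a * y * a⁻¹ ∈ D) (hHD : ∀ a ∈ H, ∀ y ∈ D, a * y * a⁻¹ ∈ D) {y : Γ} (hy : y ∈ Q)
    (h1 : ∀ a ∈ F, a * y * a⁻¹ * y⁻¹ ∈ D) (h2 : ∀ a ∈ H, a * y * a⁻¹ * y⁻¹ ∈ D) : y ∈ D := by
  have hHFD : H ⊔ F ≤ Subgroup.normalizer (D : Set Γ) :=
    sup_le (le_normalizer_of_conj hHD) (le_normalizer_of_conj hFD)
  have hcop : (Nat.card (H ⊔ F : Subgroup Γ)).Coprime (Nat.card Q) := by
    have hc : Nat.card (H ⊔ F : Subgroup Γ) ∣ Nat.card H * Nat.card F :=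
      Cfsg.Agent.OddOrderLocal.DecompBasic.card_sup_dvd c.hHnF
    apply Nat.Coprime.coprime_dvd_left hc
    exact Nat.Coprime.mul_left ((Nat.Prime.coprime_iff_not_dvd c.hH).2 (not_dvd_card c.hq c.hH c.hqe c.hQ le_rfl))
      ((Nat.Prime.coprime_iff_not_dvd c.hF).2 (not_dvd_card c.hq c.hF c.hqf c.hQ le_rfl))
  obtain ⟨z, hz, hyz⟩ := Cfsg.Agent.S0022.result (H ⊔ F) Q (le_top.trans_eq Q.normalizer_eq_top.symm)
    hcop (Or.inr (solvable_of_le c.hq c.hQ le_rfl)) D hDQ (le_normalizer_of_conj hQD) hHFD y hy (by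
      intro a ha
      have h3 : a ∈ ((H ⊔ F : Subgroup Γ) : Set Γ) := ha
      rw [Subgroup.coe_mul_of_left_le_normalizer_right H F c.hHnF] at h3
      obtain ⟨h, hh, b, hb, rfl⟩ := h3
      have h4 : h * b * y * (h * b)⁻¹ * y⁻¹ = h * (b * y * b⁻¹ * y⁻¹) * h⁻¹ * (h * y * h⁻¹ * y⁻¹) := by group
      show h * b * y * (h * b)⁻¹ * y⁻¹ ∈ D
      rw [h4]
      exact D.mul_mem (hHD h hh _ (h1 b hb)) (h2 h hh))
  have hz1 : z = 1 := by
    apply c.hCQ z hz.1
    · intro a ha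
      exact Subgroup.mem_centralizer_iff.1 hz.2 a (Subgroup.mem_sup_right ha)
    · intro a ha
      exact Subgroup.mem_centralizer_iff.1 hz.2 a (Subgroup.mem_sup_left ha)
  rw [hz1, mul_one] at hyz
  exact inv_mem_iff.1 hyz

/-- the preimage of the centraliser of `Q / D` -/
def cmod (Q D : Subgroup Γ) [D.Normal] : Subgroup Γ :=
  (Subgroup.centralizer (Q.map (QuotientGroup.mk' D) : Set (Γ ⧸ D))).comap (QuotientGroup.mk' D)

omit [Finite Γ] in
theorem cmod_normal (Q D : Subgroup Γ) [Q.Normal] [D.Normal] : (cmod Q D).Normal := by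
  have : (Q.map (QuotientGroup.mk' D)).Normal :=
    Subgroup.Normal.map inferInstance _ (QuotientGroup.mk'_surjective _)
  have : (Subgroup.centralizer (Q.map (QuotientGroup.mk' D) : Set (Γ ⧸ D))).Normal := inferInstance
  exact Subgroup.Normal.comap this _

omit [Finite Γ] in
theorem mem_cmod {Q D : Subgroup Γ} [D.Normal] {g : Γ} :
    g ∈ cmod Q D ↔ ∀ y ∈ Q, y * g * y⁻¹ * g⁻¹ ∈ D := by
  unfold cmod
  rw [Subgroup.mem_comap, Subgroup.mem_centralizer_iff]
  constructor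
  · intro h y hy
    have h2 := h _ ⟨y, hy, rfl⟩
    rw [← QuotientGroup.eq_one_iff]
    show (QuotientGroup.mk' D) (y * g * y⁻¹ * g⁻¹) = 1
    rw [map_mul, map_mul, map_mul, h2, map_inv, map_inv, mul_inv_cancel_right, mul_inv_cancel]
  · rintro h _ ⟨y, hy, rfl⟩
    have h2 := h y hy
    rw [← QuotientGroup.eq_one_iff] at h2
    have h3 : (QuotientGroup.mk' D) (y * g * y⁻¹ * g⁻¹) = 1 := h2
    have h4 : y * g = (y * g * y⁻¹ * g⁻¹) * (g * y) := by group
    rw [← map_mul, h4, map_mul, h3, one_mul, map_mul]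

/-- if `[T, F]` centralises `Q / D` then `F` centralises `T` -/
theorem TCF (c : Core ρ Q T F H q t) [Q.Normal] {D : Subgroup Γ} [D.Normal]
    (hTD : T ≤ Subgroup.centralizer (D : Set Γ)) (hTF : ⁅T, F⁆ ≤ cmod Q D) :
    T ⊓ Subgroup.centralizer (F : Set Γ) = T := by
  have hTFT : ⁅T, F⁆ ≤ T := by
    rw [Subgroup.commutator_le]
    intro x hx a ha
    have h2 : x * a * x⁻¹ * a⁻¹ = x * (a * x⁻¹ * a⁻¹) := by group
    rw [commutatorElement_def, h2]
    exact T.mul_mem hx (c.hFT a ha _ (T.inv_mem hx))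
  have hTFQ : ⁅T, F⁆ ≤ Subgroup.centralizer (Q : Set Γ) := by
    apply Cfsg.Agent.Lib.CoprimeCommutator.le_centralizer_of_commutator_le ⁅T, F⁆ Q D
      (le_top.trans_eq Q.normalizer_eq_top.symm)
    · exact Nat.Coprime.coprime_dvd_left (Subgroup.card_dvd_of_le hTFT) c.hcopTQ
    · rw [Subgroup.commutator_le]
      intro y hy g hg
      exact mem_cmod.1 (hTF hg) y hy
    · exact hTFT.trans hTD
  have hcopFT : (Nat.card F).Coprime (Nat.card T) :=
    (Nat.Prime.coprime_iff_not_dvd c.hF).2 (not_dvd_card c.ht c.hF c.htf c.hT le_rfl)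
  have hTsplit := Cfsg.Agent.S0026.result F T c.hFnT hcopFT (Or.inr (solvable_of_le c.ht c.hT le_rfl))
  apply c.T_or inf_le_left _ _ (by rw [sup_comm]; exact hTsplit) hTFQ
  · rintro a ha y ⟨hy, hy'⟩
    have h2 : a * y * a⁻¹ = y := by
      rw [Subgroup.mem_centralizer_iff.1 hy' a ha, mul_inv_cancel_right]
    rw [h2]; exact ⟨hy, hy'⟩
  · rintro h hh y ⟨hy, hy'⟩
    refine ⟨c.hHT h hh y hy, ?_⟩
    show _ ∈ Subgroup.centralizer _
    rw [Subgroup.mem_centralizer_iff]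
    intro b hb
    have h3 : h⁻¹ * b * h ∈ F := by
      have := c.hHF h⁻¹ (H.inv_mem hh) b hb
      rwa [inv_inv] at this
    have h4 := Subgroup.mem_centralizer_iff.1 hy' _ h3
    have h5 : b * (h * y * h⁻¹) = h * ((h⁻¹ * b * h) * y) * h⁻¹ := by group
    rw [h5, h4]; group

/-- The case where `F` fixes all weights in the orbit. -/
theorem caseF (c : Core ρ Q T F H q t) [IsAlgClosed k] [FiniteDimensional k V] [Q.Normal]
    {Z : Subgroup Γ} [Z.Normal] (hZQ : Z ≤ Q)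
    (hZ : ∀ y ∈ Q, ∀ z ∈ Z, y * z = z * y) {χ : Z → k} (hχ : wt ρ Z χ ≠ ⊥) (hχ1 : ∃ z, χ z ≠ 1)
    (hF : ∀ g : Γ, ∀ a ∈ F, a • g • χ = g • χ) : False := by
  have hDn : (dsub ρ Q χ).Normal := dsub_normal
  set D := dsub ρ Q χ with hD
  have hDne : D ≠ Q := dsub_ne hZQ hχ hχ1
  -- `[Q, F] ≤ D`
  have h1 : ∀ y ∈ Q, ∀ a ∈ F, a * y * a⁻¹ * y⁻¹ ∈ D := by
    intro y hy a ha
    refine ⟨Q.mul_mem (Subgroup.Normal.conj_mem inferInstance y hy a) (Q.inv_mem hy), ?_⟩
    intro g w hw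
    have h2 : ρ (a⁻¹ * y⁻¹) w ∈ wt ρ Z (g • χ) := by
      rw [map_mul, End.mul_apply]
      apply stab_mem (hF g _ (F.inv_mem ha))
      exact stab_mem (smul_eq_of_centralizer (hZ _ (Q.inv_mem hy)) _) hw
    have h3 := c.commF hZQ hZ (Sit.smul_nontrivial hχ1 g) (hF g) y hy a ha _ h2
    have h4 : a * y * a⁻¹ * y⁻¹ = a * y * (a⁻¹ * y⁻¹) := by group
    rw [h4, map_mul _ (a * y), End.mul_apply, h3, ← End.mul_apply, ← map_mul]
    have h5 : y * a * (a⁻¹ * y⁻¹) = 1 := by group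
    rw [h5, map_one, End.one_apply]
  -- `F` centralises `Q / D`
  have hFN : F ≤ cmod Q D := by
    intro a ha
    rw [mem_cmod]
    intro y hy
    have h2 : y * a * y⁻¹ * a⁻¹ = (a * y * a⁻¹ * y⁻¹)⁻¹ := by group
    rw [h2]
    exact D.inv_mem (h1 y hy a ha)
  have := cmod_normal Q D
  have hTF : ⁅T, F⁆ ≤ cmod Q D :=
    (Subgroup.commutator_mono le_rfl hFN).trans (Subgroup.commutator_le_right _ _)
  have hCTF : T ⊓ Subgroup.centralizer (F : Set Γ) = T := c.TCF (c.T_dsub hZQ hχ hχ1) hTF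
  -- apply the Frobenius formula
  obtain ⟨x, hx, hx1⟩ := exists_ne_one_of_prime H c.hH
  have hDD : D ⊔ ⁅Q, Q⁆ ≤ Q := sup_le dsub_le (Subgroup.commutator_le_left _ _)
  have hD₁n : (D ⊔ ⁅Q, Q⁆ : Subgroup Γ).Normal := inferInstance
  set D₁ := D ⊔ ⁅Q, Q⁆ with hD₁
  have hxgen : ∀ h ∈ H, ∃ n : ℕ, x ^ n = h := by
    intro h hh
    have hbz := mem_zpowers_of_prime H c.hH hx hx1 hh
    rw [← mem_powers_iff_mem_zpowers] at hbz
    exact hbz
  let C : Subgroup Γ := D₁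
  have h2 := Cfsg.Agent.H851.PQ.P2 T Q D₁ D₁ x c.hH (pow_card_eq_one_of_mem H hx)
    (c.hHT x hx) (fun y hy => Subgroup.Normal.conj_mem inferInstance y hy x)
    (fun y hy => Subgroup.Normal.conj_mem hD₁n y hy x)
    (fun t _ y hy => Subgroup.Normal.conj_mem inferInstance y hy t)
    (fun t _ y hy => Subgroup.Normal.conj_mem hD₁n y hy t) hDD
    (fun t _ y hy => Subgroup.Normal.conj_mem hD₁n y hy t)
    (fun y hy z hz => (le_sup_right : ⁅Q, Q⁆ ≤ D₁) (Subgroup.commutator_mem_commutator hy hz))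
    c.hcopTQ (not_dvd_card c.hq c.hH c.hqe c.hQ le_rfl) (not_dvd_card c.ht c.hH c.hte c.hT le_rfl)
    (by
      intro y hy hxy
      apply c.hCT y hy
      · intro a ha
        rw [← hCTF] at hy
        exact Subgroup.mem_centralizer_iff.1 hy.2 a ha
      · intro a ha
        obtain ⟨n, rfl⟩ := hxgen a ha
        have : Commute x y := hxy
        exact (this.pow_left n))
    (c.CT' (le_sup_right) hDD (fun x _ y hy => Subgroup.Normal.conj_mem hD₁n y hy x))
    (by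
      intro y
      constructor
      · intro hy
        refine ⟨hDD hy, ?_⟩
        exact D₁.mul_mem (D₁.inv_mem hy) (Subgroup.Normal.conj_mem hD₁n y hy x)
      · rintro ⟨hy, hxy⟩
        apply c.fixA hDD (fun a _ y hy => Subgroup.Normal.conj_mem hD₁n y hy a)
          (fun a _ y hy => Subgroup.Normal.conj_mem hD₁n y hy a)
          (fun a _ y hy => Subgroup.Normal.conj_mem hD₁n y hy a) hy
        · intro a ha
          exact (le_sup_left : D ≤ D₁) (h1 y hy a ha)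
        · intro a ha
          obtain ⟨n, rfl⟩ := hxgen a ha
          have h3 : Commute (QuotientGroup.mk' D₁ x) (QuotientGroup.mk' D₁ y) := by
            have h4 : (QuotientGroup.mk' D₁) (y⁻¹ * (x * y * x⁻¹)) = 1 := (QuotientGroup.eq_one_iff _).2 hxy
            have h5 : x * y = y * (y⁻¹ * (x * y * x⁻¹)) * x := by group
            show _ * _ = _ * _
            rw [← map_mul, ← map_mul, h5, map_mul, map_mul, h4, mul_one, ← map_mul]
          have h6 := h3.pow_left n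
          rw [← QuotientGroup.eq_one_iff]
          show (QuotientGroup.mk' D₁) (x ^ n * y * (x ^ n)⁻¹ * y⁻¹) = 1
          rw [map_mul, map_mul, map_mul, map_pow, h6.eq, map_inv, map_inv, map_pow, mul_inv_cancel_right,
            mul_inv_cancel])
  rw [Subgroup.relIndex_self, one_pow, Subgroup.relIndex_eq_one] at h2
  exact c.sup_ne dsub_le hDne (le_antisymm hDD h2)

omit [Finite Γ] in
/-- an element of `T` commuting with `H` is trivial if `F` centralises `T` -/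
theorem CTH (c : Core ρ Q T F H q t) (hCTF : T ⊓ Subgroup.centralizer (F : Set Γ) = T) {y : Γ} (hy : y ∈ T)
    (h : ∀ a ∈ H, a * y = y * a) : y = 1 := by
  apply c.hCT y hy _ h
  intro a ha
  rw [← hCTF] at hy
  exact Subgroup.mem_centralizer_iff.1 hy.2 a ha

/-- in case (H) the fixed points of `F` are in `D` -/
theorem CQF (c : Core ρ Q T F H q t) [FiniteDimensional k V] [Q.Normal]
    {Z : Subgroup Γ} [Z.Normal] (hZQ : Z ≤ Q)
    (hZ : ∀ y ∈ Q, ∀ z ∈ Z, y * z = z * y) {χ : Z → k} (hχ : wt ρ Z χ ≠ ⊥) (hχ1 : ∃ z, χ z ≠ 1)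
    (hF : ∀ g : Γ, ∃ a ∈ F, a • g • χ ≠ g • χ) (hH : ∀ h ∈ H, h • χ = χ) :
    Q ⊓ Subgroup.centralizer (F : Set Γ) ≤ dsub ρ Q χ := by
  have s := c.sit inferInstance hZQ (fun a ha b hb => hZ a (hZQ ha) b hb)
  obtain ⟨x, hx, hx1⟩ := exists_ne_one_of_prime H c.hH
  have hxgen : ∀ h ∈ H, ∃ n : ℕ, x ^ n = h := by
    intro h hh
    have hbz := mem_zpowers_of_prime H c.hH hx hx1 hh
    rw [← mem_powers_iff_mem_zpowers] at hbz
    exact hbz
  have key : ∀ u ∈ T, ∀ y ∈ Q ⊓ Subgroup.centralizer (F : Set Γ), ∀ w ∈ wt ρ Z (u • χ), ρ y w = w := by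
    intro u hu
    have hHu := s.hc hχ hχ1 hF hH hu
    apply Cfsg.Agent.H851.PQ.P3 ρ (Q ⊓ Subgroup.centralizer (F : Set Γ)) x c.hH
      (pow_card_eq_one_of_mem H hx)
    · rintro y ⟨hy, hy'⟩
      refine ⟨Subgroup.Normal.conj_mem inferInstance y hy x, ?_⟩
      show _ ∈ Subgroup.centralizer _
      rw [Subgroup.mem_centralizer_iff]
      intro b hb
      have h3 : x⁻¹ * b * x ∈ F := by
        have := c.hHF x⁻¹ (H.inv_mem hx) b hb
        rwa [inv_inv] at this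
      have h4 := Subgroup.mem_centralizer_iff.1 hy' _ h3
      have h5 : b * (x * y * x⁻¹) = x * ((x⁻¹ * b * x) * y) * x⁻¹ := by group
      rw [h5, h4]; group
    · exact cast_ne_zero c.hq c.hqk c.hQ inf_le_left
    · rintro y ⟨hy, hy'⟩ hxy
      apply c.hCQ y hy
      · intro a ha
        exact Subgroup.mem_centralizer_iff.1 hy' a ha
      · intro a ha
        obtain ⟨n, rfl⟩ := hxgen a ha
        have : Commute x y := hxy
        exact (this.pow_left n)
    · intro y hy w hw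
      exact stab_mem (smul_eq_of_centralizer (hZ y hy.1) _) hw
    · intro w hw
      exact stab_mem (hHu x hx) hw
    · intro w hw hxw
      apply s.fixH (hF u) hw
      intro a ha
      obtain ⟨n, rfl⟩ := hxgen a ha
      have h6 : ∀ n : ℕ, ρ (x ^ n) w = w := by
        intro n
        induction n with
        | zero => rw [pow_zero, map_one, End.one_apply]
        | succ n ih => rw [pow_succ, map_mul, End.mul_apply, hxw, ih]
      exact h6 n
  rintro y ⟨hy, hy'⟩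
  refine ⟨hy, ?_⟩
  intro g w hw
  obtain ⟨a, ha, u, hu, h, hh, hg⟩ := c.hdec hZ g
  rw [hg χ, hH h hh] at hw
  have h1 := smul_mem_wt hw a⁻¹
  rw [inv_smul_smul] at h1
  have h2 := key u hu y ⟨hy, hy'⟩ _ h1
  have h3 := Subgroup.mem_centralizer_iff.1 hy' _ (F.inv_mem ha)
  rw [← End.mul_apply, ← map_mul, ← h3, map_mul, End.mul_apply] at h2
  have h4 := congrArg (ρ a) h2
  have h5 : ∀ v, ρ a (ρ a⁻¹ v) = v := by
    intro v
    rw [← End.mul_apply, ← map_mul, mul_inv_cancel, map_one, End.one_apply]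
  rw [h5, h5] at h4
  exact h4

/-- in case (H), `F` centralises `T` -/
theorem TCF_H (c : Core ρ Q T F H q t) [FiniteDimensional k V] [Q.Normal]
    {Z : Subgroup Γ} [Z.Normal] (hZQ : Z ≤ Q)
    (hZ : ∀ y ∈ Q, ∀ z ∈ Z, y * z = z * y) {χ : Z → k} (hχ : wt ρ Z χ ≠ ⊥) (hχ1 : ∃ z, χ z ≠ 1)
    (hF : ∀ g : Γ, ∃ a ∈ F, a • g • χ ≠ g • χ) (hH : ∀ h ∈ H, h • χ = χ) :
    T ⊓ Subgroup.centralizer (F : Set Γ) = T := by
  have hDn : (dsub ρ Q χ).Normal := dsub_normal
  have hCQF := c.CQF hZQ hZ hχ hχ1 hF hH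
  have hTD := c.T_dsub hZQ hχ hχ1
  have hDne : dsub ρ Q χ ≠ Q := dsub_ne hZQ hχ hχ1
  have hDQ : dsub ρ Q χ ≤ Q := dsub_le
  set D := dsub ρ Q χ with hD
  have hcopFQ : (Nat.card F).Coprime (Nat.card Q) :=
    (Nat.Prime.coprime_iff_not_dvd c.hF).2 (not_dvd_card c.hq c.hF c.hqf c.hQ le_rfl)
  have hcopFT : (Nat.card F).Coprime (Nat.card T) :=
    (Nat.Prime.coprime_iff_not_dvd c.hF).2 (not_dvd_card c.ht c.hF c.htf c.hT le_rfl)
  -- fixed points of `F` modulo `D`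
  have hfix : ∀ y ∈ Q, (∀ a ∈ F, a * y * a⁻¹ * y⁻¹ ∈ D) → y ∈ D := by
    intro y hy h
    obtain ⟨z, hz, hyz⟩ := Cfsg.Agent.S0022.result F Q (le_top.trans_eq Q.normalizer_eq_top.symm)
      hcopFQ (Or.inr (solvable_of_le c.hq c.hQ le_rfl)) D hDQ
      (le_top.trans_eq D.normalizer_eq_top.symm) (le_top.trans_eq D.normalizer_eq_top.symm) y hy h
    have h3 : y = z * (y⁻¹ * z)⁻¹ := by group
    rw [h3]
    exact D.mul_mem (hCQF hz) (D.inv_mem hyz)
  set φ := QuotientGroup.mk' D with hφ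
  have hcardF : Nat.card (F.map φ) = Nat.card F := by
    have hdiv : Nat.card (F.map φ) ∣ Nat.card F := Subgroup.card_map_dvd _ φ
    rcases (Nat.dvd_prime c.hF).1 hdiv with h | h
    · exfalso
      rw [Subgroup.card_eq_one, Subgroup.map_eq_bot_iff, hφ, QuotientGroup.ker_mk'] at h
      have h1 := (Subgroup.card_dvd_of_le (h.trans hDQ))
      exact not_dvd_card c.hq c.hF c.hqf c.hQ le_rfl h1
    · exact h
  have hQs := solvable_of_le c.hq c.hQ (le_refl Q)
  have hTs := solvable_of_le c.ht c.hT (le_refl T)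
  have hQφs : Group.IsSolvable (Q.map φ) :=
    Group.isSolvable_of_surjective (f := φ.subgroupMap Q) (φ.subgroupMap_surjective Q)
  have hTφs : Group.IsSolvable (T.map φ) :=
    Group.isSolvable_of_surjective (f := φ.subgroupMap T) (φ.subgroupMap_surjective T)
  have hQφn : (Q.map φ).Normal := Subgroup.Normal.map inferInstance φ (QuotientGroup.mk'_surjective _)
  have hcT : Nat.card (T.map φ) ∣ Nat.card T := Subgroup.card_map_dvd _ φ
  have hcQ : Nat.card (Q.map φ) ∣ Nat.card Q := Subgroup.card_map_dvd _ φ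
  have hkey := Cfsg.Agent.SignalizersComponents.NoFixedGen.commutator_le_centralizer_of_fixedFree
    (T.map φ) (F.map φ) (Q.map φ) hTφs
    (by
      rw [hcardF]
      intro h
      exact not_dvd_card c.ht c.hH c.hte c.hT le_rfl
        ((c.hef.trans (dvd_pow_self _ two_ne_zero)).trans (h.trans hcT)))
    (by rw [hcardF]; exact c.hF) (by rw [hcardF]; exact c.card_F_ne_two)
    ((Subgroup.map_mono c.hFnT).trans (Subgroup.le_normalizer_map φ))
    (by rw [hcardF]; exact (Nat.Coprime.coprime_dvd_left hcT hcopFT.symm))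
    (le_top.trans_eq (Q.map φ).normalizer_eq_top.symm) (le_top.trans_eq (Q.map φ).normalizer_eq_top.symm)
    hQφs (Nat.Coprime.coprime_dvd_left hcQ (Nat.Coprime.coprime_dvd_right hcT c.hcopTQ.symm))
    (by rw [hcardF]; exact (Nat.Coprime.coprime_dvd_left hcQ hcopFQ.symm))
    (by
      rw [eq_bot_iff]
      rintro _ ⟨⟨y, hy, rfl⟩, h⟩
      rw [Subgroup.mem_bot, hφ, QuotientGroup.mk'_apply, QuotientGroup.eq_one_iff]
      apply hfix y hy
      intro a ha
      have h2 := Subgroup.mem_centralizer_iff.1 h _ ⟨a, ha, rfl⟩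
      rw [← QuotientGroup.eq_one_iff]
      show φ (a * y * a⁻¹ * y⁻¹) = 1
      rw [map_mul, map_mul, map_mul, h2, map_inv, map_inv, mul_inv_cancel_right, mul_inv_cancel])
  apply c.TCF hTD
  intro g hg
  show φ g ∈ Subgroup.centralizer _
  apply hkey
  rw [← Subgroup.map_commutator]
  exact ⟨g, hg, rfl⟩

/-- The case (H), `Q` commutative. -/
theorem caseH_comm (c : Core ρ Q T F H q t) [FiniteDimensional k V] [Q.Normal]
    (hQc : ∀ a ∈ Q, ∀ b ∈ Q, a * b = b * a) {χ : Q → k} (hχ : wt ρ Q χ ≠ ⊥) (hχ1 : ∃ z, χ z ≠ 1)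
    (hF : ∀ g : Γ, ∃ a ∈ F, a • g • χ ≠ g • χ) (hH : ∀ h ∈ H, h • χ = χ) : False := by
  have s := c.sit inferInstance le_rfl hQc
  have hCTF := c.TCF_H le_rfl hQc hχ hχ1 hF hH
  have hcopHT : (Nat.card H).Coprime (Nat.card T) :=
    (Nat.Prime.coprime_iff_not_dvd c.hH).2 (not_dvd_card c.ht c.hH c.hte c.hT le_rfl)
  have hTs := solvable_of_le c.ht c.hT (le_refl T)
  have hTsplit := Cfsg.Agent.S0026.result H T c.hHnT hcopHT (Or.inr hTs)
  have hCTH : T ⊓ Subgroup.centralizer (H : Set Γ) = ⊥ := by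
    rw [eq_bot_iff]
    rintro y ⟨hy, hy'⟩
    rw [Subgroup.mem_bot]
    exact c.CTH hCTF hy (fun a ha => Subgroup.mem_centralizer_iff.1 hy' a ha)
  rw [hCTH, sup_bot_eq] at hTsplit
  have hstab : T ≤ MulAction.stabilizer Γ χ := by
    rw [← hTsplit, Subgroup.commutator_le]
    intro x hx h hh
    rw [commutatorElement_def, MulAction.mem_stabilizer_iff]
    have h1 := s.hc hχ hχ1 hF hH (T.inv_mem hx) h hh
    have h2 : h⁻¹ • χ = χ := hH _ (H.inv_mem hh)
    rw [mul_smul, mul_smul, mul_smul, h2, h1, smul_inv_smul]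
  have hQ2 : ∀ y ∈ ⁅Q, T⁆, ∀ w ∈ wt ρ Q χ, ρ y w = w := by
    let K : Subgroup Γ :=
      { carrier := {g | ∀ w ∈ wt ρ Q χ, ρ g w = w}
        mul_mem' := by
          intro a b ha hb w hw
          rw [map_mul, End.mul_apply, hb w hw, ha w hw]
        one_mem' := by
          intro w _
          rw [map_one, End.one_apply]
        inv_mem' := by
          intro a ha w hw
          conv_lhs => rw [← ha w hw]
          rw [← End.mul_apply, ← map_mul, inv_mul_cancel, map_one, End.one_apply] }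
    have hK : ⁅Q, T⁆ ≤ K := by
      rw [Subgroup.commutator_le]
      intro z hz a ha w hw
      have haψ : a • χ = χ := hstab ha
      have hz' : z⁻¹ ∈ Q := inv_mem hz
      rw [commutatorElement_def]
      have h3 : ρ (a * z⁻¹ * a⁻¹) w = ρ z⁻¹ w := by
        rw [mem_wt] at hw
        have h4 := hw (MulAut.conjNormal a ⟨z⁻¹, hz'⟩)
        have h5 := hw ⟨z⁻¹, hz'⟩
        rw [MulAut.conjNormal_apply] at h4
        rw [h4, h5]
        congr 1
        have h6 := congrFun haψ (MulAut.conjNormal a ⟨z⁻¹, hz'⟩)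
        rw [wt_smul_def, ← MulAut.mul_apply, ← map_mul, inv_mul_cancel, map_one] at h6
        exact h6.symm
      have h7 : z * a * z⁻¹ * a⁻¹ = z * (a * z⁻¹ * a⁻¹) := by group
      rw [h7, map_mul, End.mul_apply, h3, ← End.mul_apply, ← map_mul, mul_inv_cancel, map_one,
        End.one_apply]
    exact fun y hy => hK hy
  rw [c.hQT] at hQ2
  obtain ⟨z, hz⟩ := hχ1
  obtain ⟨v, hv, hv0⟩ := Submodule.exists_mem_ne_zero_of_ne_bot hχ
  have h8 := hQ2 z z.2 v hv
  rw [mem_wt.1 hv z] at h8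
  have h9 : (χ z - 1) • v = 0 := by rw [sub_smul, one_smul, h8, sub_self]
  rcases smul_eq_zero.1 h9 with h | h
  · exact hz (sub_eq_zero.1 h)
  · exact hv0 h

theorem arith {e n d : ℕ} (he : e.Prime) (h1 : n ^ e = d ^ 2) (h2 : d ^ 2 ≤ (e - 1) ^ 2 * n)
    (hn : n ^ e ≠ 1) (hn0 : n ≠ 0) : False := by
  have hn1 : n ≠ 1 := by
    rintro rfl
    exact hn (one_pow e)
  have hn2 : 2 ≤ n := by omega
  rcases he.eq_two_or_odd' with rfl | hodd
  · rw [← h1] at h2
    norm_num at h2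
    nlinarith
  · -- `n` is a square
    obtain ⟨j, hj⟩ := hodd
    have h3 : (n ^ j) ^ 2 * n = d ^ 2 := by
      rw [← h1, hj]; ring
    have h4 : n ^ j ∣ d := by
      rw [← Nat.pow_dvd_pow_iff two_ne_zero, ← h3]
      exact dvd_mul_right _ _
    obtain ⟨m, rfl⟩ := h4
    have h5 : n = m ^ 2 := by
      have h6 : 0 < (n ^ j) ^ 2 := by positivity
      rw [mul_pow] at h3
      exact Nat.eq_of_mul_eq_mul_left h6 h3
    subst h5
    have hm : 2 ≤ m := by
      by_contra hcon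
      have : m = 0 ∨ m = 1 := by omega
      rcases this with rfl | rfl
      · simp at hn0
      · simp at hn1
    rw [← h1] at h2
    have h6 : (m ^ e) ^ 2 ≤ ((e - 1) * m) ^ 2 := by
      calc (m ^ e) ^ 2 = (m ^ 2) ^ e := by rw [← pow_mul, ← pow_mul, mul_comm]
        _ ≤ (e - 1) ^ 2 * m ^ 2 := h2
        _ = _ := by rw [mul_pow]
    have h7 : m ^ e ≤ (e - 1) * m := by
      exact (Nat.pow_le_pow_iff_left two_ne_zero).1 h6
    have h8 : m ^ e = m ^ (e - 1) * m := by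
      rw [← pow_succ]; congr 1; have := he.one_lt; omega
    rw [h8] at h7
    have h9 : m ^ (e - 1) ≤ e - 1 := Nat.le_of_mul_le_mul_right h7 (by omega)
    have h10 : e - 1 < 2 ^ (e - 1) := Nat.lt_two_pow_self
    have h11 : 2 ^ (e - 1) ≤ m ^ (e - 1) := Nat.pow_le_pow_left hm _
    omega

/-- The case (H), `Q` not commutative. -/
theorem caseH_noncomm (c : Core ρ Q T F H q t) [IsAlgClosed k] [FiniteDimensional k V] [Q.Normal]
    {Z : Subgroup Γ} [Z.Normal] (hZQ : Z ≤ Q)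
    (hZ : ∀ y ∈ Q, ∀ z ∈ Z, y * z = z * y) (hZne : Z ≠ Q) (hQQ : ⁅Q, Q⁆ ≤ Z)
    {χ : Z → k} (hχ : wt ρ Z χ ≠ ⊥) (hχ1 : ∃ z : Z, (z : Γ) ∈ ⁅Q, Q⁆ ∧ χ z ≠ 1)
    (hF : ∀ g : Γ, ∃ a ∈ F, a • g • χ ≠ g • χ) (hH : ∀ h ∈ H, h • χ = χ) : False := by
  have s := c.sit inferInstance hZQ (fun a ha b hb => hZ a (hZQ ha) b hb)
  have hχ1' : ∃ z, χ z ≠ 1 := by
    obtain ⟨z, _, hz⟩ := hχ1
    exact ⟨z, hz⟩
  have hCTF := c.TCF_H hZQ hZ hχ hχ1' hF hH
  have hTZ : T ≤ Subgroup.centralizer (Z : Set Γ) := c.hminQ Z hZQ hZne inferInstance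
  have hTχ : ∀ x ∈ T, x • χ = χ := by
    intro x hx
    apply smul_eq_of_centralizer
    intro z hz
    exact (Subgroup.mem_centralizer_iff.1 (hTZ hx) z hz).symm
  have hQχ : ∀ x ∈ Q, x • χ = χ := fun x hx => smul_eq_of_centralizer (hZ x hx) χ
  obtain ⟨x, hx, hx1⟩ := exists_ne_one_of_prime H c.hH
  have hxgen : ∀ h ∈ H, ∃ n : ℕ, x ^ n = h := by
    intro h hh
    have hbz := mem_zpowers_of_prime H c.hH hx hx1 hh
    rw [← mem_powers_iff_mem_zpowers] at hbz
    exact hbz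
  have hcommZ : ∀ y ∈ Q, ∀ z ∈ Q, y * z * y⁻¹ * z⁻¹ ∈ Z := fun y hy z hz =>
    hQQ (Subgroup.commutator_mem_commutator hy hz)
  let W := wt ρ Z χ
  have hQn : ∀ g : Γ, ∀ y ∈ Q, g * y * g⁻¹ ∈ Q := fun g y hy => Subgroup.Normal.conj_mem inferInstance y hy g
  let R : Subgroup Γ :=
    { carrier := {y | y ∈ Q ∧ ∀ z ∈ Q, ∀ w ∈ W, ρ (y * z * y⁻¹ * z⁻¹) w = w}
      mul_mem' := by
        rintro a b ⟨ha, ha'⟩ ⟨hb, hb'⟩
        refine ⟨Q.mul_mem ha hb, fun z hz w hw => ?_⟩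
        have h1 : a * b * z * (a * b)⁻¹ * z⁻¹ = (b * z * b⁻¹ * z⁻¹) * (a * z * a⁻¹ * z⁻¹) := by
          have h2 := hZ a ha _ (hcommZ b hb z hz)
          have h3 : a * b * z * (a * b)⁻¹ * z⁻¹ = (a * (b * z * b⁻¹ * z⁻¹)) * (z * a⁻¹ * z⁻¹) := by group
          rw [h3, h2]; group
        rw [h1, map_mul, End.mul_apply, ha' z hz w hw, hb' z hz w hw]
      one_mem' := ⟨Q.one_mem, fun z _ w _ => by
        have : (1 : Γ) * z * 1⁻¹ * z⁻¹ = 1 := by group
        rw [this, map_one, End.one_apply]⟩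
      inv_mem' := by
        rintro a ⟨ha, ha'⟩
        refine ⟨Q.inv_mem ha, fun z hz w hw => ?_⟩
        have h1 : a⁻¹ * z * a⁻¹⁻¹ * z⁻¹ = (a * z * a⁻¹ * z⁻¹)⁻¹ := by
          have h2 := hZ (a⁻¹) (Q.inv_mem ha) _ (hcommZ z hz a ha)
          have h3 : a⁻¹ * z * a⁻¹⁻¹ * z⁻¹ = a⁻¹ * (z * a * z⁻¹ * a⁻¹) * a := by group
          rw [h3, h2]; group
        rw [h1]
        conv_lhs => rw [← ha' z hz w hw]
        rw [← End.mul_apply, ← map_mul, inv_mul_cancel, map_one, End.one_apply] }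
  have hRQ : R ≤ Q := fun y hy => hy.1
  have hRconj : ∀ g : Γ, g • χ = χ → ∀ y ∈ R, g * y * g⁻¹ ∈ R := by
    rintro g hg y ⟨hy, hy'⟩
    refine ⟨hQn g y hy, ?_⟩
    intro z hz w hw
    have hz' : g⁻¹ * z * g ∈ Q := by
      have := hQn g⁻¹ z hz
      rwa [inv_inv] at this
    have hg' : g⁻¹ • χ = χ := by
      conv_lhs => rw [← hg]
      rw [inv_smul_smul]
    have hw' : ρ g⁻¹ w ∈ W := stab_mem hg' hw
    have h1 : g * y * g⁻¹ * z * (g * y * g⁻¹)⁻¹ * z⁻¹ =
        g * ((y * (g⁻¹ * z * g) * y⁻¹ * (g⁻¹ * z * g)⁻¹) * g⁻¹) := by group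
    rw [h1, map_mul, map_mul, End.mul_apply, End.mul_apply, hy' _ hz' _ hw', ← End.mul_apply, ← map_mul,
      mul_inv_cancel, map_one, End.one_apply]
  have hZR : Z ≤ R := by
    intro y hy
    refine ⟨hZQ hy, ?_⟩
    intro z hz w _
    have h1 : y * z * y⁻¹ * z⁻¹ = 1 := by
      rw [← hZ z hz y hy]; group
    rw [h1, map_one, End.one_apply]
  have hRQn : Q ≤ Subgroup.normalizer (R : Set Γ) :=
    le_normalizer_of_conj (fun a ha => hRconj a (hQχ a ha))
  let C : Subgroup Γ :=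
    { carrier := {y | y ∈ Q ∧ y⁻¹ * (x * y * x⁻¹) ∈ R}
      mul_mem' := by
        rintro a b ⟨ha, ha'⟩ ⟨hb, hb'⟩
        refine ⟨Q.mul_mem ha hb, ?_⟩
        have h1 : (a * b)⁻¹ * (x * (a * b) * x⁻¹) =
            b⁻¹ * (a⁻¹ * (x * a * x⁻¹)) * b⁻¹⁻¹ * (b⁻¹ * (x * b * x⁻¹)) := by group
        rw [h1]
        exact R.mul_mem (hRconj _ (hQχ _ (Q.inv_mem hb)) _ ha') hb'
      one_mem' := ⟨Q.one_mem, by
        have : (1 : Γ)⁻¹ * (x * 1 * x⁻¹) = 1 := by group
        rw [this]; exact R.one_mem⟩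
      inv_mem' := by
        rintro a ⟨ha, ha'⟩
        refine ⟨Q.inv_mem ha, ?_⟩
        have h1 : a⁻¹⁻¹ * (x * a⁻¹ * x⁻¹) = a * (a⁻¹ * (x * a * x⁻¹))⁻¹ * a⁻¹ := by group
        rw [h1]
        exact hRconj _ (hQχ _ ha) _ (R.inv_mem ha') }
  have hCdef : ∀ y, y ∈ C ↔ y ∈ Q ∧ y⁻¹ * (x * y * x⁻¹) ∈ R := fun y => Iff.rfl
  have hxn : x ^ Nat.card H = 1 := pow_card_eq_one_of_mem H hx
  have hP1 := Cfsg.Agent.H851.PQ.P1 ρ Q R C x c.hH hxn (hQn x) c.hek
    (cast_ne_zero c.hq c.hqk c.hQ le_rfl) (not_dvd_card c.hq c.hH c.hqe c.hQ le_rfl) W hχ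
    (fun y hy w hw => stab_mem (hQχ y hy) hw) (fun w hw => stab_mem (hH x hx) hw)
    (fun y hy z hz => ⟨χ ⟨_, hcommZ y hy z hz⟩, fun w hw => mem_wt.1 hw ⟨_, hcommZ y hy z hz⟩⟩)
    (fun y => Iff.rfl) hCdef
    (by
      intro w hw hxw
      apply s.fixH (by have := hF 1; simpa only [one_smul] using this) hw
      intro a ha
      obtain ⟨n, rfl⟩ := hxgen a ha
      have h6 : ∀ n : ℕ, ρ (x ^ n) w = w := by
        intro n
        induction n with
        | zero => rw [pow_zero, map_one, End.one_apply]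
        | succ n ih => rw [pow_succ, map_mul, End.mul_apply, hxw, ih]
      exact h6 n)
  have hP2 := Cfsg.Agent.H851.PQ.P2 T Q R C x c.hH hxn (c.hHT x hx) (hQn x)
    (hRconj x (hH x hx)) (fun t _ => hQn t) (fun t ht => hRconj t (hTχ t ht)) hRQ
    (fun t ht => hRconj t (hQχ t ht)) (fun y hy z hz => hZR (hcommZ y hy z hz))
    c.hcopTQ (not_dvd_card c.hq c.hH c.hqe c.hQ le_rfl) (not_dvd_card c.ht c.hH c.hte c.hT le_rfl)
    (by
      intro y hy hxy
      apply c.CTH hCTF hy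
      intro a ha
      obtain ⟨n, rfl⟩ := hxgen a ha
      have : Commute x y := hxy
      exact (this.pow_left n))
    (c.CT' (hQQ.trans hZR) hRQ (fun t ht => hRconj t (hTχ t ht))) hCdef
  obtain ⟨d, hd1, hd2⟩ := hP1
  apply arith (e := Nat.card H) (n := R.relIndex C) (d := d) c.hH
  · rw [← hP2, hd1]
  · exact hd2
  · rw [← hP2, Ne, Subgroup.relIndex_eq_one]
    intro hQR
    obtain ⟨z, hzQ, hz⟩ := hχ1
    have hK : ∀ g ∈ ⁅Q, Q⁆, ∀ w ∈ W, ρ g w = w := by
      let K : Subgroup Γ :=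
        { carrier := {g | ∀ w ∈ W, ρ g w = w}
          mul_mem' := by
            intro a b ha hb w hw
            rw [map_mul, End.mul_apply, hb w hw, ha w hw]
          one_mem' := by
            intro w _
            rw [map_one, End.one_apply]
          inv_mem' := by
            intro a ha w hw
            conv_lhs => rw [← ha w hw]
            rw [← End.mul_apply, ← map_mul, inv_mul_cancel, map_one, End.one_apply] }
      have hK : ⁅Q, Q⁆ ≤ K := by
        rw [Subgroup.commutator_le]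
        intro y hy z hz w hw
        exact (hQR hy).2 z hz w hw
      exact fun g hg => hK hg
    obtain ⟨v, hv, hv0⟩ := Submodule.exists_mem_ne_zero_of_ne_bot hχ
    have h8 := hK z hzQ v hv
    rw [mem_wt.1 hv z] at h8
    have h9 : (χ z - 1) • v = 0 := by rw [sub_smul, one_smul, h8, sub_self]
    rcases smul_eq_zero.1 h9 with h | h
    · exact hz (sub_eq_zero.1 h)
    · exact hv0 h
  · exact Subgroup.index_ne_zero_of_finite (H := R.subgroupOf C)

/-- a weight not trivial on a given element -/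
theorem exists_weight (c : Core ρ Q T F H q t) [IsAlgClosed k] [FiniteDimensional k V]
    {Z : Subgroup Γ} (hZQ : Z ≤ Q) (hZ : ∀ a ∈ Z, ∀ b ∈ Z, a * b = b * a) (z : Z) (hz : (z : Γ) ≠ 1) :
    ∃ χ : Z → k, wt ρ Z χ ≠ ⊥ ∧ χ z ≠ 1 := by
  by_contra hcon
  push Not at hcon
  apply hz
  apply c.hfaith z (hZQ z.2)
  intro v
  have h1 : (⊤ : Submodule k V) ≤ End.eigenspace (ρ z) 1 := by
    rw [← iSup_wt ρ Z (cast_ne_zero c.hq c.hqk c.hQ hZQ) hZ]
    apply iSup_le
    intro χ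
    by_cases h : wt ρ Z χ = ⊥
    · rw [h]; exact bot_le
    · intro w hw
      rw [End.mem_eigenspace_iff, ← hcon χ h]
      exact mem_wt.1 hw z
  have h2 := h1 (Submodule.mem_top : v ∈ ⊤)
  rw [End.mem_eigenspace_iff, one_smul] at h2
  exact h2

theorem false_of_core [IsAlgClosed k] [FiniteDimensional k V] [Q.Normal] (c : Core ρ Q T F H q t) : False := by
  -- it suffices to treat a suitable commutative normal subgroup and element
  have main : ∀ (Z : Subgroup Γ) (_ : Z.Normal) (hZQ : Z ≤ Q) (hZ : ∀ y ∈ Q, ∀ z ∈ Z, y * z = z * y)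
      (z : Z) (hz : (z : Γ) ≠ 1) (hfin : ∀ g : Γ, ∀ χ : Z → k, wt ρ Z χ ≠ ⊥ → χ z ≠ 1 →
        (∀ g' : Γ, ∃ a ∈ F, a • g' • g • χ ≠ g' • g • χ) →
        (∀ h ∈ H, h • g • χ = g • χ) → False), False := by
    intro Z hZn hZQ hZ z hz hfin
    have hZc : ∀ a ∈ Z, ∀ b ∈ Z, a * b = b * a := fun a ha b hb => hZ a (hZQ ha) b hb
    have s := c.sit hZn hZQ hZc
    obtain ⟨χ, hχ, hχz⟩ := c.exists_weight hZQ hZc z hz
    by_cases hcase : ∃ g : Γ, ∀ a ∈ F, a • g • χ = g • χ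
    · obtain ⟨g, hg⟩ := hcase
      apply c.caseF hZQ hZ hχ ⟨z, hχz⟩
      intro g'
      have h1 := s.di (c.hdec hZ) (Sit.smul_ne_bot hχ g) (Sit.smul_nontrivial ⟨z, hχz⟩ g) hg (g' * g⁻¹)
      rwa [mul_smul, inv_smul_smul] at h1
    · push Not at hcase
      obtain ⟨a, ha, hfix⟩ := s.exists_fixH hχ (by simpa only [one_smul] using hcase 1)
      apply hfin a χ hχ hχz _ hfix
      intro g'
      have := hcase (g' * a)
      simpa only [mul_smul] using this
  by_cases hQc : ∀ a ∈ Q, ∀ b ∈ Q, a * b = b * a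
  · obtain ⟨z, hz, hz1⟩ := (Subgroup.bot_or_exists_ne_one Q).resolve_left c.hQ1
    apply main Q inferInstance le_rfl hQc ⟨z, hz⟩ hz1
    intro g χ hχ hχz h1 h2
    exact c.caseH_comm hQc (Sit.smul_ne_bot hχ g) (Sit.smul_nontrivial ⟨_, hχz⟩ g) h1 h2
  · have hQQ1 : ⁅Q, Q⁆ ≠ ⊥ := by
      intro h
      apply hQc
      rw [Subgroup.commutator_eq_bot_iff_le_centralizer] at h
      intro a ha b hb
      exact Subgroup.mem_centralizer_iff.1 (h hb) a ha
    have hQs := solvable_of_le c.hq c.hQ (le_refl Q)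
    have hQQne : ⁅Q, Q⁆ ≠ Q := commutator_ne Q c.hQ1
    have hQQle : ⁅Q, Q⁆ ≤ Q := Subgroup.commutator_le_left _ _
    -- `⁅Q, Q⁆` is central in `Q`
    have hTQQ : T ≤ Subgroup.centralizer ((⁅Q, Q⁆ : Subgroup Γ) : Set Γ) :=
      c.hminQ _ hQQle hQQne inferInstance
    have hQQQ : Q ≤ Subgroup.centralizer ((⁅Q, Q⁆ : Subgroup Γ) : Set Γ) := by
      have h1 : ⁅Q, T⁆ ≤ Subgroup.centralizer ((⁅Q, Q⁆ : Subgroup Γ) : Set Γ) :=
        (Subgroup.commutator_mono le_rfl hTQQ).trans (Subgroup.commutator_le_right _ _)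
      rwa [c.hQT] at h1
    let Z := Q ⊓ Subgroup.centralizer (Q : Set Γ)
    have hZn : Z.Normal := inferInstance
    have hZQ : Z ≤ Q := inf_le_left
    have hZ : ∀ y ∈ Q, ∀ z ∈ Z, y * z = z * y := by
      intro y hy z hz
      exact Subgroup.mem_centralizer_iff.1 hz.2 y hy
    have hZne : Z ≠ Q := by
      intro h
      apply hQc
      intro a ha b hb
      rw [← h] at hb
      exact hZ a ha b hb
    have hQQZ : ⁅Q, Q⁆ ≤ Z := by
      apply le_inf hQQle
      rw [Subgroup.le_centralizer_iff]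
      exact hQQQ
    obtain ⟨z, hz, hz1⟩ := (Subgroup.bot_or_exists_ne_one ⁅Q, Q⁆).resolve_left hQQ1
    apply main Z hZn hZQ hZ ⟨z, hQQZ hz⟩ hz1
    intro g χ hχ hχz h1 h2
    apply c.caseH_noncomm hZQ hZ hZne hQQZ (Sit.smul_ne_bot hχ g) _ h1 h2
    refine ⟨MulAut.conjNormal g ⟨z, hQQZ hz⟩, ?_, ?_⟩
    · rw [MulAut.conjNormal_apply]
      exact Subgroup.Normal.conj_mem inferInstance z hz g
    · rw [wt_smul_def, ← MulAut.mul_apply, ← map_mul, inv_mul_cancel, map_one]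
      exact hχz

end Core

end Cfsg.Agent.H562.FpfCore
end

-- part: H562/FpfThm
section
/-!
# Theorem R

`A = F H`, `|F| = f`, `|H| = e ∣ f - 1`, acting on a `q`-group `Q`, a `t`-group `T` normalising `Q` and a
representation without nontrivial common fixed points.  Then `[Q, T]` is in the kernel of the representation.
-/

set_option autoImplicit false

namespace Cfsg.Agent.H562.FpfThm

open Module Cfsg.Agent.H562.FpfCore

/-- fixed points modulo an invariant normal subgroup -/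
theorem fixA_gen {Γ : Type*} [Group Γ] [Finite Γ] {Q F H D : Subgroup Γ}
    (hFQn : F ≤ Subgroup.normalizer (Q : Set Γ)) (hHQn : H ≤ Subgroup.normalizer (Q : Set Γ))
    (hHF : H ≤ Subgroup.normalizer (F : Set Γ))
    (hFQ : (Nat.card F).Coprime (Nat.card Q)) (hHQ : (Nat.card H).Coprime (Nat.card Q))
    (hQs : Group.IsSolvable Q) (hDQ : D ≤ Q) (hQD : Q ≤ Subgroup.normalizer (D : Set Γ))
    (hFD : ∀ a ∈ F, ∀ y ∈ D, a * y * a⁻¹ ∈ D) (hHD : ∀ a ∈ H, ∀ y ∈ D, a * y * a⁻¹ ∈ D)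
    (hCQ : ∀ x ∈ Q, (∀ a ∈ F, a * x = x * a) → (∀ a ∈ H, a * x = x * a) → x = 1) {y : Γ} (hy : y ∈ Q)
    (h1 : ∀ a ∈ F, a * y * a⁻¹ * y⁻¹ ∈ D) (h2 : ∀ a ∈ H, a * y * a⁻¹ * y⁻¹ ∈ D) : y ∈ D := by
  have hHFD : H ⊔ F ≤ Subgroup.normalizer (D : Set Γ) :=
    sup_le (le_normalizer_of_conj hHD) (le_normalizer_of_conj hFD)
  have hcop : (Nat.card (H ⊔ F : Subgroup Γ)).Coprime (Nat.card Q) := by
    have hc : Nat.card (H ⊔ F : Subgroup Γ) ∣ Nat.card H * Nat.card F :=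
      Cfsg.Agent.OddOrderLocal.DecompBasic.card_sup_dvd hHF
    apply Nat.Coprime.coprime_dvd_left hc
    exact Nat.Coprime.mul_left hHQ hFQ
  obtain ⟨z, hz, hyz⟩ := Cfsg.Agent.S0022.result (H ⊔ F) Q (sup_le hHQn hFQn)
    hcop (Or.inr hQs) D hDQ hQD hHFD y hy (by
      intro a ha
      have h3 : a ∈ ((H ⊔ F : Subgroup Γ) : Set Γ) := ha
      rw [Subgroup.coe_mul_of_left_le_normalizer_right H F hHF] at h3
      obtain ⟨h, hh, b, hb, rfl⟩ := h3
      have h4 : h * b * y * (h * b)⁻¹ * y⁻¹ = h * (b * y * b⁻¹ * y⁻¹) * h⁻¹ * (h * y * h⁻¹ * y⁻¹) := by group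
      show h * b * y * (h * b)⁻¹ * y⁻¹ ∈ D
      rw [h4]
      exact D.mul_mem (hHD h hh _ (h1 b hb)) (h2 h hh))
  have hz1 : z = 1 := by
    apply hCQ z hz.1
    · intro a ha
      exact Subgroup.mem_centralizer_iff.1 hz.2 a (Subgroup.mem_sup_right ha)
    · intro a ha
      exact Subgroup.mem_centralizer_iff.1 hz.2 a (Subgroup.mem_sup_left ha)
  rw [hz1, mul_one] at hyz
  exact inv_mem_iff.1 hyz

theorem card_map_prime {Γ Γ' : Type*} [Group Γ] [Group Γ'] [Finite Γ] (π : Γ →* Γ') {F : Subgroup Γ}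
    (hF : (Nat.card F).Prime) {q : ℕ} (hq : q.Prime) (hqf : q ≠ Nat.card F) {Q : Subgroup Γ}
    (hQ : IsPGroup q Q) (hker : π.ker ≤ Q) : Nat.card (F.map π) = Nat.card F := by
  have hdiv : Nat.card (F.map π) ∣ Nat.card F := Subgroup.card_map_dvd _ π
  rcases (Nat.dvd_prime hF).1 hdiv with h | h
  · exfalso
    rw [Subgroup.card_eq_one, Subgroup.map_eq_bot_iff] at h
    have h1 := (Subgroup.card_dvd_of_le (h.trans hker))
    exact not_dvd_card hq hF hqf hQ le_rfl h1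
  · exact h

/-- reduction to the case where `ρ` is faithful on `Q` -/
theorem red1 {k : Type*} [Field k] [IsAlgClosed k] {Γ : Type*} [Group Γ] [Finite Γ] {V : Type*}
    [AddCommGroup V] [Module k V] [FiniteDimensional k V]
    (ρ : Representation k Γ V) (Q T F H : Subgroup Γ) [Q.Normal] {q t : ℕ}
    (hq : q.Prime) (ht : t.Prime) (hqt : q ≠ t) (hQ : IsPGroup q Q) (hT : IsPGroup t T)
    (hF : (Nat.card F).Prime) (hH : (Nat.card H).Prime) (hef : Nat.card H ∣ Nat.card F - 1)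
    (hHF : ∀ h ∈ H, ∀ a ∈ F, h * a * h⁻¹ ∈ F) (hFT : ∀ a ∈ F, ∀ y ∈ T, a * y * a⁻¹ ∈ T)
    (hHT : ∀ a ∈ H, ∀ y ∈ T, a * y * a⁻¹ ∈ T) (hqf : q ≠ Nat.card F) (hqe : q ≠ Nat.card H)
    (htf : t ≠ Nat.card F) (hte : t ≠ Nat.card H) (hqk : (q : k) ≠ 0) (hek : (Nat.card H : k) ≠ 0)
    (hfk : (Nat.card F : k) ≠ 0)
    (hCQ : ∀ x ∈ Q, (∀ a ∈ F, a * x = x * a) → (∀ a ∈ H, a * x = x * a) → x = 1)
    (hCT : ∀ x ∈ T, (∀ a ∈ F, a * x = x * a) → (∀ a ∈ H, a * x = x * a) → x = 1)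
    (hV : ∀ v : V, (∀ a ∈ F, ρ a v = v) → (∀ a ∈ H, ρ a v = v) → v = 0)
    (hgen : Q ⊔ (T ⊔ (F ⊔ H)) = ⊤) (hQT : ⁅Q, T⁆ = Q)
    (hminT : ∀ T₁ : Subgroup Γ, T₁ ≤ T → T₁ ≠ T → (∀ a ∈ F, ∀ y ∈ T₁, a * y * a⁻¹ ∈ T₁) →
      (∀ a ∈ H, ∀ y ∈ T₁, a * y * a⁻¹ ∈ T₁) → ∀ y ∈ ⁅Q, T₁⁆, ρ y = 1)
    (hminQ : ∀ Q₁ : Subgroup Γ, Q₁ ≤ Q → Q₁ ≠ Q → Q₁.Normal → ∀ y ∈ ⁅Q₁, T⁆, ρ y = 1)
    (hne : ∃ y ∈ Q, ρ y ≠ 1) : False := by
  have hN₀n : (Q ⊓ MonoidHom.ker ρ).Normal := inferInstance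
  set N₀ : Subgroup Γ := Q ⊓ MonoidHom.ker ρ with hN₀
  have hN₀Q : N₀ ≤ Q := inf_le_left
  let ρ₂ : Representation k (Γ ⧸ N₀) V := QuotientGroup.lift N₀ ρ (fun y hy => hy.2)
  let π : Γ →* Γ ⧸ N₀ := QuotientGroup.mk' N₀
  have hρ₂ : ∀ g, ρ₂ (π g) = ρ g := fun g => rfl
  have hπs : Function.Surjective π := QuotientGroup.mk'_surjective N₀
  have hπk : π.ker = N₀ := QuotientGroup.ker_mk' N₀
  have hπ1 : ∀ g, π g = 1 ↔ g ∈ N₀ := fun g => by rw [← MonoidHom.mem_ker, hπk]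
  have hcF : Nat.card (F.map π) = Nat.card F := card_map_prime π hF hq hqf hQ (hπk.le.trans hN₀Q)
  have hcH : Nat.card (H.map π) = Nat.card H := card_map_prime π hH hq hqe hQ (hπk.le.trans hN₀Q)
  have hQ₂n : (Q.map π).Normal := Subgroup.Normal.map inferInstance π hπs
  have hFQ : (Nat.card F).Coprime (Nat.card Q) :=
    (Nat.Prime.coprime_iff_not_dvd hF).2 (not_dvd_card hq hF hqf hQ le_rfl)
  have hHQ : (Nat.card H).Coprime (Nat.card Q) :=
    (Nat.Prime.coprime_iff_not_dvd hH).2 (not_dvd_card hq hH hqe hQ le_rfl)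
  have : Fact q.Prime := ⟨hq⟩
  have : Fact t.Prime := ⟨ht⟩
  have hTQ : (Nat.card T).Coprime (Nat.card Q) := IsPGroup.coprime_card_of_ne t q hqt.symm T Q hT hQ
  have hcommut : ∀ a y : Γ, π a * π y = π y * π a → a * y * a⁻¹ * y⁻¹ ∈ N₀ := by
    intro a y h
    rw [← hπ1, map_mul, map_mul, map_mul, h, map_inv, map_inv, mul_inv_cancel_right, mul_inv_cancel]
  have c : Core ρ₂ (Q.map π) (T.map π) (F.map π) (H.map π) q t :=
    { hq := hq
      ht := ht
      hqt := hqt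
      hQ := hQ.map π
      hT := hT.map π
      hF := by rw [hcF]; exact hF
      hH := by rw [hcH]; exact hH
      hef := by rw [hcF, hcH]; exact hef
      hHF := by
        rintro _ ⟨h, hh, rfl⟩ _ ⟨a, ha, rfl⟩
        exact ⟨h * a * h⁻¹, hHF h hh a ha, by rw [map_mul, map_mul, map_inv]⟩
      hFT := by
        rintro _ ⟨h, hh, rfl⟩ _ ⟨a, ha, rfl⟩
        exact ⟨h * a * h⁻¹, hFT h hh a ha, by rw [map_mul, map_mul, map_inv]⟩
      hHT := by
        rintro _ ⟨h, hh, rfl⟩ _ ⟨a, ha, rfl⟩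
        exact ⟨h * a * h⁻¹, hHT h hh a ha, by rw [map_mul, map_mul, map_inv]⟩
      hqf := by rw [hcF]; exact hqf
      hqe := by rw [hcH]; exact hqe
      htf := by rw [hcF]; exact htf
      hte := by rw [hcH]; exact hte
      hqk := hqk
      hek := by rw [hcH]; exact hek
      hfk := by rw [hcF]; exact hfk
      hCQ := by
        rintro _ ⟨y, hy, rfl⟩ h1 h2
        rw [hπ1]
        apply fixA_gen (F := F) (H := H) (Q := Q) (le_top.trans_eq Q.normalizer_eq_top.symm)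
          (le_top.trans_eq Q.normalizer_eq_top.symm) (le_normalizer_of_conj hHF) hFQ hHQ
          (Core.solvable_of_le hq hQ le_rfl) hN₀Q (le_top.trans_eq N₀.normalizer_eq_top.symm)
          (fun a _ y hy => Subgroup.Normal.conj_mem inferInstance y hy a)
          (fun a _ y hy => Subgroup.Normal.conj_mem inferInstance y hy a) hCQ hy
        · intro a ha
          exact hcommut a y (h1 _ ⟨a, ha, rfl⟩)
        · intro a ha
          exact hcommut a y (h2 _ ⟨a, ha, rfl⟩)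
      hCT := by
        rintro _ ⟨y, hy, rfl⟩ h1 h2
        have hTN : ∀ z, z ∈ T → z ∈ N₀ → z = 1 := by
          intro z hz hz'
          have h3 := (Subgroup.disjoint_of_coprime_natCard hTQ).eq_bot
          have h4 : z ∈ T ⊓ Q := ⟨hz, hN₀Q hz'⟩
          rw [h3, Subgroup.mem_bot] at h4
          exact h4
        have : y = 1 := by
          apply hCT y hy
          · intro a ha
            have h3 := hTN _ (T.mul_mem (hFT a ha y hy) (T.inv_mem hy)) (hcommut a y (h1 _ ⟨a, ha, rfl⟩))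
            have h4 : a * y = (a * y * a⁻¹ * y⁻¹) * (y * a) := by group
            rw [h4, h3, one_mul]
          · intro a ha
            have h3 := hTN _ (T.mul_mem (hHT a ha y hy) (T.inv_mem hy)) (hcommut a y (h2 _ ⟨a, ha, rfl⟩))
            have h4 : a * y = (a * y * a⁻¹ * y⁻¹) * (y * a) := by group
            rw [h4, h3, one_mul]
        rw [this, map_one]
      hV := by
        intro v h1 h2
        apply hV v
        · intro a ha
          rw [← hρ₂]
          exact h1 _ ⟨a, ha, rfl⟩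
        · intro a ha
          rw [← hρ₂]
          exact h2 _ ⟨a, ha, rfl⟩
      hgen := by
        rw [← Subgroup.map_sup, ← Subgroup.map_sup, ← Subgroup.map_sup, hgen]
        exact Subgroup.map_top_of_surjective π hπs
      hfaith := by
        rintro _ ⟨y, hy, rfl⟩ h
        rw [hπ1]
        refine ⟨hy, ?_⟩
        show ρ y = 1
        ext v
        exact h v
      hQT := by rw [← Subgroup.map_commutator, hQT]
      hQ1 := by
        intro h
        rw [Subgroup.map_eq_bot_iff, hπk] at h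
        obtain ⟨y, hy, hy1⟩ := hne
        exact hy1 (h hy).2
      hminT := by
        intro T₁ hT₁ hne₁ h1 h2
        have h3 : ∀ y ∈ ⁅Q, T ⊓ T₁.comap π⁆, ρ y = 1 := by
          apply hminT _ inf_le_left
          · intro h
            apply hne₁
            apply le_antisymm hT₁
            rintro _ ⟨y, hy, rfl⟩
            rw [← h] at hy
            exact hy.2
          · rintro a ha y ⟨hy, hy'⟩
            refine ⟨hFT a ha y hy, ?_⟩
            show π (a * y * a⁻¹) ∈ T₁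
            rw [map_mul, map_mul, map_inv]
            exact h1 _ ⟨a, ha, rfl⟩ _ hy'
          · rintro a ha y ⟨hy, hy'⟩
            refine ⟨hHT a ha y hy, ?_⟩
            show π (a * y * a⁻¹) ∈ T₁
            rw [map_mul, map_mul, map_inv]
            exact h2 _ ⟨a, ha, rfl⟩ _ hy'
        intro x hx
        obtain ⟨x', hx', rfl⟩ := hT₁ hx
        rw [Subgroup.mem_centralizer_iff]
        rintro _ ⟨y, hy, rfl⟩
        have h4 : y * x' * y⁻¹ * x'⁻¹ ∈ N₀ := by
          refine ⟨?_, h3 _ (Subgroup.commutator_mem_commutator (H₁ := Q) (H₂ := T ⊓ T₁.comap π)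
            hy ⟨hx', hx⟩)⟩
          exact (Subgroup.commutator_le_left Q ⊤)
            (Subgroup.commutator_mem_commutator (H₁ := Q) (H₂ := ⊤) hy trivial)
        rw [← hπ1, map_mul, map_mul, map_mul, map_inv, map_inv, mul_inv_eq_one,
          mul_inv_eq_iff_eq_mul] at h4
        exact h4
      hminQ := by
        intro Q₁ hQ₁ hne₁ hQ₁n
        have h3 : ∀ y ∈ ⁅Q ⊓ Q₁.comap π, T⁆, ρ y = 1 := by
          apply hminQ _ inf_le_left
          · intro h
            apply hne₁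
            apply le_antisymm hQ₁
            rintro _ ⟨y, hy, rfl⟩
            rw [← h] at hy
            exact hy.2
          · have := Subgroup.Normal.comap hQ₁n π
            infer_instance
        rintro _ ⟨x, hx, rfl⟩
        rw [Subgroup.mem_centralizer_iff]
        intro y hy
        obtain ⟨y', hy', rfl⟩ := hQ₁ hy
        have h4 : y' * x * y'⁻¹ * x⁻¹ ∈ N₀ := by
          refine ⟨?_, h3 _ (Subgroup.commutator_mem_commutator (H₁ := Q ⊓ Q₁.comap π) (H₂ := T)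
            ⟨hy', hy⟩ hx)⟩
          exact (Subgroup.commutator_le_left Q ⊤)
            (Subgroup.commutator_mem_commutator (H₁ := Q) (H₂ := ⊤) hy' trivial)
        rw [← hπ1, map_mul, map_mul, map_mul, map_inv, map_inv, mul_inv_eq_one,
          mul_inv_eq_iff_eq_mul] at h4
        exact h4 }
  exact c.false_of_core

theorem card_lt {Γ : Type*} [Group Γ] [Finite Γ] {A B : Subgroup Γ} (h : A ≤ B) (hne : A ≠ B) :
    Nat.card A < Nat.card B := by
  apply lt_of_le_of_ne (Subgroup.card_le_of_le h)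
  intro h1
  exact hne (Subgroup.eq_of_le_of_card_ge h h1.ge)

/-- reduction to the case where `Γ = Q T F H` -/
theorem red2 {k : Type*} [Field k] [IsAlgClosed k] {Γ : Type*} [Group Γ] [Finite Γ] {V : Type*}
    [AddCommGroup V] [Module k V] [FiniteDimensional k V]
    (ρ : Representation k Γ V) (Q T F H : Subgroup Γ) {q t : ℕ}
    (hq : q.Prime) (ht : t.Prime) (hqt : q ≠ t) (hQ : IsPGroup q Q) (hT : IsPGroup t T)
    (hF : (Nat.card F).Prime) (hH : (Nat.card H).Prime) (hef : Nat.card H ∣ Nat.card F - 1)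
    (hHF : ∀ h ∈ H, ∀ a ∈ F, h * a * h⁻¹ ∈ F) (hTQ : ∀ a ∈ T, ∀ y ∈ Q, a * y * a⁻¹ ∈ Q)
    (hFQ : ∀ a ∈ F, ∀ y ∈ Q, a * y * a⁻¹ ∈ Q) (hHQ : ∀ a ∈ H, ∀ y ∈ Q, a * y * a⁻¹ ∈ Q)
    (hFT : ∀ a ∈ F, ∀ y ∈ T, a * y * a⁻¹ ∈ T)
    (hHT : ∀ a ∈ H, ∀ y ∈ T, a * y * a⁻¹ ∈ T) (hqf : q ≠ Nat.card F) (hqe : q ≠ Nat.card H)
    (htf : t ≠ Nat.card F) (hte : t ≠ Nat.card H) (hqk : (q : k) ≠ 0) (hek : (Nat.card H : k) ≠ 0)
    (hfk : (Nat.card F : k) ≠ 0)
    (hCQ : ∀ x ∈ Q, (∀ a ∈ F, a * x = x * a) → (∀ a ∈ H, a * x = x * a) → x = 1)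
    (hCT : ∀ x ∈ T, (∀ a ∈ F, a * x = x * a) → (∀ a ∈ H, a * x = x * a) → x = 1)
    (hV : ∀ v : V, (∀ a ∈ F, ρ a v = v) → (∀ a ∈ H, ρ a v = v) → v = 0)
    (hQT : ⁅Q, T⁆ = Q)
    (hminT : ∀ T₁ : Subgroup Γ, T₁ ≤ T → T₁ ≠ T → (∀ a ∈ F, ∀ y ∈ T₁, a * y * a⁻¹ ∈ T₁) →
      (∀ a ∈ H, ∀ y ∈ T₁, a * y * a⁻¹ ∈ T₁) → ∀ y ∈ ⁅Q, T₁⁆, ρ y = 1)
    (hminQ : ∀ Q₁ : Subgroup Γ, Q₁ ≤ Q → Q₁ ≠ Q → (∀ a ∈ T, ∀ y ∈ Q₁, a * y * a⁻¹ ∈ Q₁) →
      (∀ a ∈ F, ∀ y ∈ Q₁, a * y * a⁻¹ ∈ Q₁) → (∀ a ∈ H, ∀ y ∈ Q₁, a * y * a⁻¹ ∈ Q₁) →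
      ∀ y ∈ ⁅Q₁, T⁆, ρ y = 1)
    (hne : ∃ y ∈ Q, ρ y ≠ 1) : False := by
  set Γ₁ : Subgroup Γ := Q ⊔ (T ⊔ (F ⊔ H)) with hΓ₁
  have hQΓ : Q ≤ Γ₁ := le_sup_left
  have hTΓ : T ≤ Γ₁ := le_sup_left.trans le_sup_right
  have hFΓ : F ≤ Γ₁ := (le_sup_left.trans le_sup_right).trans le_sup_right
  have hHΓ : H ≤ Γ₁ := (le_sup_right.trans le_sup_right).trans le_sup_right
  have hc : ∀ A : Subgroup Γ, A ≤ Γ₁ → Nat.card (A.subgroupOf Γ₁) = Nat.card A :=
    fun A hA => Nat.card_congr (Subgroup.subgroupOfEquivOfLe hA).toEquiv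
  have hm : ∀ A : Subgroup Γ, A ≤ Γ₁ → (A.subgroupOf Γ₁).map Γ₁.subtype = A := by
    intro A hA
    rw [Subgroup.subgroupOf_map_subtype, inf_eq_left.2 hA]
  have hp : ∀ (p : ℕ) (A : Subgroup Γ), A ≤ Γ₁ → IsPGroup p A → IsPGroup p (A.subgroupOf Γ₁) :=
    fun p A hA h => h.of_injective (Subgroup.subgroupOfEquivOfLe hA).toMonoidHom
      (Subgroup.subgroupOfEquivOfLe hA).injective
  have hQn : (Q.subgroupOf Γ₁).Normal := by
    apply Subgroup.normal_subgroupOf_of_le_normalizer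
    apply sup_le Subgroup.le_normalizer
    exact sup_le (le_normalizer_of_conj hTQ) (sup_le (le_normalizer_of_conj hFQ) (le_normalizer_of_conj hHQ))
  have hsub : ∀ A B : Subgroup Γ, A ≤ Γ₁ → B ≤ Γ₁ →
      (A ⊔ B).subgroupOf Γ₁ = A.subgroupOf Γ₁ ⊔ B.subgroupOf Γ₁ := by
    intro A B hA hB
    exact Subgroup.subgroupOf_sup hA hB
  refine red1 (ρ.comp Γ₁.subtype) (Q.subgroupOf Γ₁) (T.subgroupOf Γ₁) (F.subgroupOf Γ₁) (H.subgroupOf Γ₁)
    hq ht hqt (hp q Q hQΓ hQ) (hp t T hTΓ hT) (by rw [hc F hFΓ]; exact hF) (by rw [hc H hHΓ]; exact hH)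
    (by rw [hc F hFΓ, hc H hHΓ]; exact hef) (fun h hh a ha => hHF h hh a ha)
    (fun h hh a ha => hFT h hh a ha) (fun h hh a ha => hHT h hh a ha) (by rw [hc F hFΓ]; exact hqf)
    (by rw [hc H hHΓ]; exact hqe) (by rw [hc F hFΓ]; exact htf) (by rw [hc H hHΓ]; exact hte) hqk
    (by rw [hc H hHΓ]; exact hek) (by rw [hc F hFΓ]; exact hfk) ?_ ?_ ?_ ?_ ?_ ?_ ?_ ?_
  · rintro ⟨x, hx⟩ hxQ h1 h2
    apply Subtype.ext
    apply hCQ x hxQ
    · intro a ha
      exact congrArg Subtype.val (h1 ⟨a, hFΓ ha⟩ ha)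
    · intro a ha
      exact congrArg Subtype.val (h2 ⟨a, hHΓ ha⟩ ha)
  · rintro ⟨x, hx⟩ hxQ h1 h2
    apply Subtype.ext
    apply hCT x hxQ
    · intro a ha
      exact congrArg Subtype.val (h1 ⟨a, hFΓ ha⟩ ha)
    · intro a ha
      exact congrArg Subtype.val (h2 ⟨a, hHΓ ha⟩ ha)
  · intro v h1 h2
    apply hV v
    · intro a ha
      exact h1 ⟨a, hFΓ ha⟩ ha
    · intro a ha
      exact h2 ⟨a, hHΓ ha⟩ ha
  · rw [← hsub F H hFΓ hHΓ, ← hsub T (F ⊔ H) hTΓ (sup_le hFΓ hHΓ),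
      ← hsub Q (T ⊔ (F ⊔ H)) hQΓ (sup_le hTΓ (sup_le hFΓ hHΓ))]
    exact Subgroup.subgroupOf_self Γ₁
  · rw [← Subgroup.map_subtype_inj, Subgroup.map_commutator, hm Q hQΓ, hm T hTΓ]
    exact hQT
  · intro T₁ hT₁ hne₁ h1 h2 y hy
    have h3 : ∀ z ∈ ⁅Q, T₁.map Γ₁.subtype⁆, ρ z = 1 := by
      apply hminT
      · rw [← hm T hTΓ]; exact Subgroup.map_mono hT₁
      · intro h
        apply hne₁
        rw [← Subgroup.map_subtype_inj, hm T hTΓ]
        exact h
      · rintro a ha _ ⟨u, hu, rfl⟩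
        exact ⟨⟨a, hFΓ ha⟩ * u * ⟨a, hFΓ ha⟩⁻¹, h1 ⟨a, hFΓ ha⟩ ha u hu, rfl⟩
      · rintro a ha _ ⟨u, hu, rfl⟩
        exact ⟨⟨a, hHΓ ha⟩ * u * ⟨a, hHΓ ha⟩⁻¹, h2 ⟨a, hHΓ ha⟩ ha u hu, rfl⟩
    show ρ (y : Γ) = 1
    apply h3
    rw [← hm Q hQΓ, ← Subgroup.map_commutator]
    exact ⟨y, hy, rfl⟩
  · intro Q₁ hQ₁ hne₁ hQ₁n y hy
    have h3 : ∀ z ∈ ⁅Q₁.map Γ₁.subtype, T⁆, ρ z = 1 := by
      apply hminQ
      · rw [← hm Q hQΓ]; exact Subgroup.map_mono hQ₁
      · intro h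
        apply hne₁
        rw [← Subgroup.map_subtype_inj, hm Q hQΓ]
        exact h
      · rintro a ha _ ⟨u, hu, rfl⟩
        exact ⟨⟨a, hTΓ ha⟩ * u * ⟨a, hTΓ ha⟩⁻¹, hQ₁n.conj_mem u hu _, rfl⟩
      · rintro a ha _ ⟨u, hu, rfl⟩
        exact ⟨⟨a, hFΓ ha⟩ * u * ⟨a, hFΓ ha⟩⁻¹, hQ₁n.conj_mem u hu _, rfl⟩
      · rintro a ha _ ⟨u, hu, rfl⟩
        exact ⟨⟨a, hHΓ ha⟩ * u * ⟨a, hHΓ ha⟩⁻¹, hQ₁n.conj_mem u hu _, rfl⟩
    show ρ (y : Γ) = 1
    apply h3
    rw [← hm T hTΓ, ← Subgroup.map_commutator]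
    exact ⟨y, hy, rfl⟩
  · obtain ⟨y, hy, hy1⟩ := hne
    exact ⟨⟨y, hQΓ hy⟩, hy, hy1⟩

theorem conj_commutator {Γ : Type*} [Group Γ] {A B : Subgroup Γ} {h : Γ} (hA : ∀ y ∈ A, h * y * h⁻¹ ∈ A)
    (hB : ∀ y ∈ B, h * y * h⁻¹ ∈ B) : ∀ y ∈ ⁅A, B⁆, h * y * h⁻¹ ∈ ⁅A, B⁆ := by
  have h1 : ⁅A, B⁆ ≤ (⁅A, B⁆).comap (MulAut.conj h).toMonoidHom := by
    rw [Subgroup.commutator_le]
    intro a ha b hb
    show h * (a * b * a⁻¹ * b⁻¹) * h⁻¹ ∈ ⁅A, B⁆
    have h2 : h * (a * b * a⁻¹ * b⁻¹) * h⁻¹ =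
        (h * a * h⁻¹) * (h * b * h⁻¹) * (h * a * h⁻¹)⁻¹ * (h * b * h⁻¹)⁻¹ := by group
    rw [h2]
    exact Subgroup.commutator_mem_commutator (hA a ha) (hB b hb)
  intro y hy
  exact h1 hy

/-- **Theorem R.** -/
theorem thmR {k : Type*} [Field k] [IsAlgClosed k] {Γ : Type*} [Group Γ] [Finite Γ] {V : Type*}
    [AddCommGroup V] [Module k V] [FiniteDimensional k V]
    (ρ : Representation k Γ V) (F H : Subgroup Γ) {q t : ℕ}
    (hq : q.Prime) (ht : t.Prime) (hqt : q ≠ t)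
    (hF : (Nat.card F).Prime) (hH : (Nat.card H).Prime) (hef : Nat.card H ∣ Nat.card F - 1)
    (hHF : ∀ h ∈ H, ∀ a ∈ F, h * a * h⁻¹ ∈ F) (hqf : q ≠ Nat.card F) (hqe : q ≠ Nat.card H)
    (htf : t ≠ Nat.card F) (hte : t ≠ Nat.card H) (hqk : (q : k) ≠ 0) (hek : (Nat.card H : k) ≠ 0)
    (hfk : (Nat.card F : k) ≠ 0)
    (hV : ∀ v : V, (∀ a ∈ F, ρ a v = v) → (∀ a ∈ H, ρ a v = v) → v = 0) :
    ∀ n : ℕ, ∀ Q T : Subgroup Γ, Nat.card Q + Nat.card T ≤ n → IsPGroup q Q → IsPGroup t T →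
    (∀ a ∈ T, ∀ y ∈ Q, a * y * a⁻¹ ∈ Q) →
    (∀ a ∈ F, ∀ y ∈ Q, a * y * a⁻¹ ∈ Q) → (∀ a ∈ H, ∀ y ∈ Q, a * y * a⁻¹ ∈ Q) →
    (∀ a ∈ F, ∀ y ∈ T, a * y * a⁻¹ ∈ T) → (∀ a ∈ H, ∀ y ∈ T, a * y * a⁻¹ ∈ T) →
    (∀ x ∈ Q, (∀ a ∈ F, a * x = x * a) → (∀ a ∈ H, a * x = x * a) → x = 1) →
    (∀ x ∈ T, (∀ a ∈ F, a * x = x * a) → (∀ a ∈ H, a * x = x * a) → x = 1) →
    ∀ y ∈ ⁅Q, T⁆, ρ y = 1 := by
  intro n
  induction n with
  | zero =>
    intro Q T hn
    have := Nat.card_pos (α := Q)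
    omega
  | succ n ih =>
    intro Q T hn hQ hT hTQ hFQ hHQ hFT hHT hCQ hCT
    by_contra hcon
    push Not at hcon
    have : Fact q.Prime := ⟨hq⟩
    have : Fact t.Prime := ⟨ht⟩
    have hcop : (Nat.card T).Coprime (Nat.card Q) := IsPGroup.coprime_card_of_ne t q hqt.symm T Q hT hQ
    have hTn : T ≤ Subgroup.normalizer (Q : Set Γ) := le_normalizer_of_conj hTQ
    have hQTQ : ⁅Q, T⁆ ≤ Q := Cfsg.Agent.Lib.CoprimeCommutator.commutator_le_left hTn
    have hQT : ⁅Q, T⁆ = Q := by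
      by_contra hne
      have h1 := ih ⁅Q, T⁆ T (by have := card_lt hQTQ hne; omega) (hQ.to_le hQTQ) hT
        (fun a ha => conj_commutator (hTQ a ha) (fun y hy => T.mul_mem (T.mul_mem ha hy) (T.inv_mem ha)))
        (fun a ha => conj_commutator (hFQ a ha) (hFT a ha))
        (fun a ha => conj_commutator (hHQ a ha) (hHT a ha)) hFT hHT
        (fun x hx => hCQ x (hQTQ hx)) hCT
      rw [Cfsg.Agent.Lib.CoprimeCommutator.commutator_commutator_eq T Q hTn hcop] at h1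
      obtain ⟨y, hy, hy1⟩ := hcon
      exact hy1 (h1 y hy)
    refine red2 ρ Q T F H hq ht hqt hQ hT hF hH hef hHF hTQ hFQ hHQ hFT hHT hqf hqe htf hte hqk hek hfk
      hCQ hCT hV hQT ?_ ?_ ?_
    · intro T₁ hT₁ hne₁ h1 h2
      exact ih Q T₁ (by have := card_lt hT₁ hne₁; omega) hQ (hT.to_le hT₁) (fun a ha => hTQ a (hT₁ ha))
        hFQ hHQ h1 h2 hCQ (fun x hx => hCT x (hT₁ hx))
    · intro Q₁ hQ₁ hne₁ h0 h1 h2
      exact ih Q₁ T (by have := card_lt hQ₁ hne₁; omega) (hQ.to_le hQ₁) hT h0 h1 h2 hFT hHT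
        (fun x hx => hCQ x (hQ₁ hx)) hCT
    · obtain ⟨y, hy, hy1⟩ := hcon
      rw [hQT] at hy
      exact ⟨y, hy, hy1⟩

open Cfsg.Agent.OddOrderLocal.Thm34 in
/-- base change of "no fixed vectors" -/
theorem no_fixed_bc {k : Type*} [Field k] (k' : Type*) [Field k'] [Algebra k k'] {Γ : Type*} [Group Γ]
    [Finite Γ] {V : Type*} [AddCommGroup V] [Module k V] (ρ : Representation k Γ V) (F H : Subgroup Γ)
    (hn : (Nat.card (F ⊔ H : Subgroup Γ) : k) ≠ 0)
    (hV : ∀ v : V, (∀ a ∈ F, ρ a v = v) → (∀ a ∈ H, ρ a v = v) → v = 0) :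
    ∀ v, (∀ a ∈ F, bc k' ρ a v = v) → (∀ a ∈ H, bc k' ρ a v = v) → v = 0 := by
  classical
  set A : Subgroup Γ := F ⊔ H with hA
  have := Fintype.ofFinite A
  have hFA : F ≤ A := le_sup_left
  have hHA : H ≤ A := le_sup_right
  have hsum : ∑ a : A, ρ (a : Γ) = 0 := by
    ext v
    have hs : ∀ b ∈ A, ρ b ((∑ a : A, ρ (a : Γ)) v) = (∑ a : A, ρ (a : Γ)) v := by
      intro b hb
      rw [LinearMap.sum_apply, map_sum]
      apply Fintype.sum_equiv (Equiv.mulLeft (⟨b, hb⟩ : A))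
      intro c
      rw [Equiv.coe_mulLeft, Subgroup.coe_mul, map_mul, Module.End.mul_apply]
    exact hV _ (fun a ha => hs a (hFA ha)) (fun a ha => hs a (hHA ha))
  have hsum' : ∑ a : A, bc k' ρ (a : Γ) = 0 := by
    have h1 := congrArg (Module.End.baseChangeHom k k' V) hsum
    rw [map_sum, map_zero] at h1
    exact h1
  intro w hF hH
  have h0 : ∀ a ∈ A, bc k' ρ a w = w := by
    let K : Subgroup Γ :=
      { carrier := {g | bc k' ρ g w = w}
        mul_mem' := by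
          intro a b ha hb
          show bc k' ρ (a * b) w = w
          rw [map_mul, Module.End.mul_apply]
          have ha' : bc k' ρ a w = w := ha
          have hb' : bc k' ρ b w = w := hb
          rw [hb', ha']
        one_mem' := by
          show bc k' ρ 1 w = w
          rw [map_one, Module.End.one_apply]
        inv_mem' := by
          intro a ha
          have ha' : bc k' ρ a w = w := ha
          show bc k' ρ a⁻¹ w = w
          conv_lhs => rw [← ha']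
          rw [← Module.End.mul_apply, ← map_mul, inv_mul_cancel, map_one, Module.End.one_apply] }
    have h1 : A ≤ K := sup_le (fun a ha => hF a ha) (fun a ha => hH a ha)
    exact fun a ha => h1 ha
  have h1 := LinearMap.congr_fun hsum' w
  rw [LinearMap.sum_apply] at h1
  have h2 : ∀ a : A, bc k' ρ (a : Γ) w = w := fun a => h0 a a.2
  simp only [h2, Finset.sum_const, Finset.card_univ, LinearMap.zero_apply] at h1
  rw [← Nat.card_eq_fintype_card, ← Nat.cast_smul_eq_nsmul k'] at h1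
  rcases smul_eq_zero.1 h1 with h3 | h3
  · exfalso
    apply hn
    have h4 : algebraMap k k' (Nat.card A : k) = 0 := by rw [map_natCast, h3]
    exact (map_eq_zero _).1 h4
  · exact h3

open Cfsg.Agent.OddOrderLocal.Thm34 in
/-- **Theorem R** over an arbitrary field. -/
theorem thmR_field {k : Type*} [Field k] {Γ : Type*} [Group Γ] [Finite Γ] {V : Type*}
    [AddCommGroup V] [Module k V] [FiniteDimensional k V]
    (ρ : Representation k Γ V) (Q T F H : Subgroup Γ) {q t : ℕ}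
    (hq : q.Prime) (ht : t.Prime) (hqt : q ≠ t)
    (hF : (Nat.card F).Prime) (hH : (Nat.card H).Prime) (hef : Nat.card H ∣ Nat.card F - 1)
    (hHF : ∀ h ∈ H, ∀ a ∈ F, h * a * h⁻¹ ∈ F) (hqf : q ≠ Nat.card F) (hqe : q ≠ Nat.card H)
    (htf : t ≠ Nat.card F) (hte : t ≠ Nat.card H) (hqk : (q : k) ≠ 0) (hek : (Nat.card H : k) ≠ 0)
    (hfk : (Nat.card F : k) ≠ 0)
    (hQ : IsPGroup q Q) (hT : IsPGroup t T) (hTQ : ∀ a ∈ T, ∀ y ∈ Q, a * y * a⁻¹ ∈ Q)
    (hFQ : ∀ a ∈ F, ∀ y ∈ Q, a * y * a⁻¹ ∈ Q) (hHQ : ∀ a ∈ H, ∀ y ∈ Q, a * y * a⁻¹ ∈ Q)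
    (hFT : ∀ a ∈ F, ∀ y ∈ T, a * y * a⁻¹ ∈ T) (hHT : ∀ a ∈ H, ∀ y ∈ T, a * y * a⁻¹ ∈ T)
    (hCQ : ∀ x ∈ Q, (∀ a ∈ F, a * x = x * a) → (∀ a ∈ H, a * x = x * a) → x = 1)
    (hCT : ∀ x ∈ T, (∀ a ∈ F, a * x = x * a) → (∀ a ∈ H, a * x = x * a) → x = 1)
    (hV : ∀ v : V, (∀ a ∈ F, ρ a v = v) → (∀ a ∈ H, ρ a v = v) → v = 0) :
    ∀ y ∈ ⁅Q, T⁆, ρ y = 1 := by
  have hcast : ∀ n : ℕ, (n : k) ≠ 0 → (n : AlgebraicClosure k) ≠ 0 := by
    intro n hn h
    apply hn
    have h1 : algebraMap k (AlgebraicClosure k) (n : k) = 0 := by rw [map_natCast, h]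
    exact (map_eq_zero _).1 h1
  have hcard : (Nat.card (F ⊔ H : Subgroup Γ) : k) ≠ 0 := by
    intro h
    have hc : Nat.card (H ⊔ F : Subgroup Γ) ∣ Nat.card H * Nat.card F :=
      Cfsg.Agent.OddOrderLocal.DecompBasic.card_sup_dvd (le_normalizer_of_conj hHF)
    rw [sup_comm] at h
    obtain ⟨m, hm⟩ := hc
    have h1 : ((Nat.card H * Nat.card F : ℕ) : k) = 0 := by rw [hm, Nat.cast_mul, h, zero_mul]
    rw [Nat.cast_mul] at h1
    rcases mul_eq_zero.1 h1 with h1 | h1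
    · exact hek h1
    · exact hfk h1
  have hV' := no_fixed_bc (AlgebraicClosure k) ρ F H hcard hV
  intro y hy
  have h1 := thmR (bc (AlgebraicClosure k) ρ) F H hq ht hqt hF hH hef hHF hqf hqe htf hte
    (hcast _ hqk) (hcast _ hek) (hcast _ hfk) hV' _ Q T le_rfl hQ hT hTQ hFQ hHQ
    hFT hHT hCQ hCT y hy
  have h2 : bc (AlgebraicClosure k) ρ y = bc (AlgebraicClosure k) ρ 1 := by rw [h1, map_one]
  rw [eq_of_bc h2, map_one]

open Cfsg.Agent.OddOrderLocal.Thm34 in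
/-- **Theorem R** for an action on an elementary abelian group. -/
theorem thmR_elem {Γ : Type*} [Group Γ] [Finite Γ] {M : Type*} [CommGroup M] [Finite M] (r : ℕ)
    [hr : Fact r.Prime] (hM : ∀ m : M, m ^ r = 1) (φ : Γ →* MulAut M) (Q T F H : Subgroup Γ) {q t : ℕ}
    (hq : q.Prime) (ht : t.Prime) (hqt : q ≠ t)
    (hF : (Nat.card F).Prime) (hH : (Nat.card H).Prime) (hef : Nat.card H ∣ Nat.card F - 1)
    (hHF : ∀ h ∈ H, ∀ a ∈ F, h * a * h⁻¹ ∈ F) (hqf : q ≠ Nat.card F) (hqe : q ≠ Nat.card H)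
    (htf : t ≠ Nat.card F) (hte : t ≠ Nat.card H) (hqr : q ≠ r) (her : Nat.card H ≠ r)
    (hfr : Nat.card F ≠ r)
    (hQ : IsPGroup q Q) (hT : IsPGroup t T) (hTQ : ∀ a ∈ T, ∀ y ∈ Q, a * y * a⁻¹ ∈ Q)
    (hFQ : ∀ a ∈ F, ∀ y ∈ Q, a * y * a⁻¹ ∈ Q) (hHQ : ∀ a ∈ H, ∀ y ∈ Q, a * y * a⁻¹ ∈ Q)
    (hFT : ∀ a ∈ F, ∀ y ∈ T, a * y * a⁻¹ ∈ T) (hHT : ∀ a ∈ H, ∀ y ∈ T, a * y * a⁻¹ ∈ T)
    (hCQ : ∀ x ∈ Q, (∀ a ∈ F, a * x = x * a) → (∀ a ∈ H, a * x = x * a) → x = 1)
    (hCT : ∀ x ∈ T, (∀ a ∈ F, a * x = x * a) → (∀ a ∈ H, a * x = x * a) → x = 1)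
    (hV : ∀ m : M, (∀ a ∈ F, φ a m = m) → (∀ a ∈ H, φ a m = m) → m = 1) :
    ∀ y ∈ ⁅Q, T⁆, ∀ m, φ y m = m := by
  let _inst : Module (ZMod r) (Additive M) := AddCommGroup.zmodModule (by
    intro a
    exact hM a.toMul)
  have hfinA : Finite (Additive M) := inferInstanceAs (Finite M)
  have hfd : FiniteDimensional (ZMod r) (Additive M) := Module.Finite.of_finite
  have hpF : ∀ n : ℕ, ¬ r ∣ n → (n : ZMod r) ≠ 0 := by
    intro n hn h
    exact hn ((ZMod.natCast_eq_zero_iff n r).1 h)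
  have hnd : ∀ {p : ℕ}, p.Prime → p ≠ r → ¬ r ∣ p := by
    intro p hp hpr h
    exact hpr ((Nat.prime_dvd_prime_iff_eq hr.out hp).1 h).symm
  intro y hy m
  have h1 := @thmR_field (ZMod r) _ Γ _ _ (Additive M) _ _inst hfd (elemRep r φ) Q T F H q t hq ht hqt hF hH
    hef hHF hqf hqe htf hte
    (hpF _ (hnd hq hqr)) (hpF _ (hnd hH her)) (hpF _ (hnd hF hfr)) hQ hT hTQ hFQ hHQ
    hFT hHT hCQ hCT (fun v h1 h2 => hV v.toMul h1 h2) y hy
  exact LinearMap.congr_fun h1 (Additive.ofMul m)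

end Cfsg.Agent.H562.FpfThm
end

-- part: H851/P45
section
/-!
# P4, P5: two criteria for membership in the Fitting subgroup of a solvable group
-/

set_option autoImplicit false

namespace Cfsg.Agent.H851.PQ

/-- A subgroup all of whose `p`-elements lie in `C` lies in `C`. -/
theorem le_of_forall_sylow {G : Type*} [Group G] [Finite G] (A C : Subgroup G)
    (h : ∀ (p : ℕ), p.Prime → ∀ y ∈ A, (∃ n : ℕ, y ^ p ^ n = 1) → y ∈ C) : A ≤ C := by
  rw [← Subgroup.subgroupOf_eq_top]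
  refine Cfsg.Agent.Lib.Cores.eq_top_of_sylow_le fun p hp => ?_
  refine ⟨default, ?_⟩
  set P : Sylow p A := default
  intro y hy
  rw [Subgroup.mem_subgroupOf]
  apply h p hp.out y y.2
  obtain ⟨n, hn⟩ := P.isPGroup' ⟨y, hy⟩
  refine ⟨n, ?_⟩
  have := congrArg (fun z : (P : Subgroup A) => ((z : A) : G)) hn
  simpa using this

/-- Splitting off the `r`-part of an element. -/
theorem exists_pow_coprime {G : Type*} [Group G] [Finite G] {r : ℕ} (hr : r.Prime) (g : G) :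
    ∃ n : ℕ, ¬ r ∣ orderOf (g ^ r ^ n) := by
  obtain ⟨n, m, hm, hnm⟩ := Nat.exists_eq_pow_mul_and_not_dvd (orderOf_pos g).ne' r hr.ne_one
  refine ⟨n, ?_⟩
  intro h
  apply hm
  refine h.trans ?_
  apply orderOf_dvd_of_pow_eq_one
  rw [← pow_mul, ← hnm, pow_orderOf_eq_one]

theorem exists_pow_mem {G : Type*} [Group G] [Finite G] {r : ℕ} (hr : r.Prime) (g : G) (C : Subgroup G)
    (h : ∀ y ∈ Subgroup.zpowers g, ¬ r ∣ orderOf y → y ∈ C) : ∃ n : ℕ, g ^ r ^ n ∈ C := by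
  obtain ⟨n, hn⟩ := exists_pow_coprime hr g
  exact ⟨n, h _ (Subgroup.pow_mem _ (Subgroup.mem_zpowers g) _) hn⟩

/-- P4. -/
theorem P4 {K : Type*} [Group K] [Finite K] [Group.IsSolvable K]
    (h : ∀ q t : ℕ, q.Prime → t.Prime → q ≠ t →
      ∃ T : Sylow t K, ∀ x ∈ Cfsg.pCore q K, ∀ y ∈ T, x * y = y * x) : Group.IsNilpotent K := by
  rw [← Cfsg.Agent.Lib.Cores.fittingSubgroup_eq_top_iff, eq_top_iff]
  apply Cfsg.Agent.OddOrderLocal.ActFitting.le_fitting_of_acts ⊤ inferInstance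
  intro r hr g _
  have hn : (Cfsg.pCore r K).Normal := Cfsg.Agent.Lib.Cores.pCore_normal r
  apply exists_pow_mem hr.out
  intro y _ hry
  -- `y` has order prime to `r`
  have hle : Subgroup.zpowers y ≤ Subgroup.centralizer (Cfsg.pCore r K : Set K) := by
    apply le_of_forall_sylow
    intro p hp z hz hpz
    obtain ⟨n, hn'⟩ := hpz
    haveI := Fact.mk hp
    by_cases hpr : p = r
    · subst hpr
      have h1 : orderOf z ∣ p ^ n := orderOf_dvd_of_pow_eq_one hn'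
      have h2 : orderOf z ∣ orderOf y := orderOf_dvd_of_mem_zpowers hz
      have h3 : orderOf z = 1 := by
        have h4 : (p ^ n).Coprime (orderOf y) :=
          Nat.Coprime.pow_left _ ((Nat.Prime.coprime_iff_not_dvd hp).mpr hry)
        exact Nat.eq_one_of_dvd_coprimes h4 h1 h2
      rw [orderOf_eq_one_iff.mp h3]
      exact Subgroup.one_mem _
    · obtain ⟨T, hT⟩ := h r p hr.out hp (Ne.symm hpr)
      have hz1 : IsPGroup p (Subgroup.zpowers z) := by
        rw [IsPGroup.iff_card]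
        rw [Nat.card_zpowers]
        obtain ⟨m, _, hm⟩ := (Nat.dvd_prime_pow hp).mp (orderOf_dvd_of_pow_eq_one hn')
        exact ⟨m, hm⟩
      obtain ⟨S, hS⟩ := hz1.exists_le_sylow
      obtain ⟨g', hg'⟩ := MulAction.exists_smul_eq K T S
      have hzS : z ∈ (S : Subgroup K) := hS (Subgroup.mem_zpowers z)
      rw [← hg', Sylow.coe_subgroup_smul, Subgroup.mem_pointwise_smul_iff_inv_smul_mem] at hzS
      rw [Subgroup.mem_centralizer_iff]
      intro x hx
      have hx' : g'⁻¹ * x * g' ∈ Cfsg.pCore r K := by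
        have := hn.conj_mem x hx g'⁻¹
        simpa using this
      have h5 := hT _ hx' _ hzS
      have h6 : (MulAut.conj g')⁻¹ • z = g'⁻¹ * z * g' := by
        rw [← map_inv]
        simp [MulAut.smul_def]
      rw [h6] at h5
      have h7 : g'⁻¹ * (x * z) * g' = g'⁻¹ * (z * x) * g' := by
        calc g'⁻¹ * (x * z) * g' = g'⁻¹ * x * g' * (g'⁻¹ * z * g') := by group
          _ = g'⁻¹ * z * g' * (g'⁻¹ * x * g') := h5
          _ = _ := by group
      exact mul_left_cancel (mul_right_cancel h7)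
  exact hle (Subgroup.mem_zpowers y)

/-- P5. -/
theorem P5 {G : Type*} [Group G] [Finite G] [Group.IsSolvable G] {q : ℕ} (hq : q.Prime)
    (x : G) (hx : (QuotientGroup.mk' (Cfsg.fittingSubgroup G)) x ∈ Cfsg.pCore q (G ⧸ Cfsg.fittingSubgroup G))
    (h : ∀ r : ℕ, r.Prime → r ≠ q → ∀ m ∈ Cfsg.pCore r G,
      x * m * x⁻¹ * m⁻¹ ∈ (frattini (Cfsg.pCore r G)).map (Cfsg.pCore r G).subtype) :
    x ∈ Cfsg.fittingSubgroup G := by
  classical
  haveI := Fact.mk hq
  have hFn : (Cfsg.fittingSubgroup G).Normal := Cfsg.Agent.Lib.Cores.fittingSubgroup_normal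
  have hMn : ∀ r : ℕ, (Cfsg.pCore r G).Normal := fun r => Cfsg.Agent.Lib.Cores.pCore_normal r
  have hqn : (Cfsg.pCore q (G ⧸ Cfsg.fittingSubgroup G)).Normal := Cfsg.Agent.Lib.Cores.pCore_normal q
  let Φ : ℕ → Subgroup G := fun r => (frattini (Cfsg.pCore r G)).map (Cfsg.pCore r G).subtype
  have hΦn : ∀ r, (Φ r).Normal := by
    intro r
    have h1 : (frattini (Cfsg.pCore r G)).Characteristic := frattini_characteristic
    exact ConjAct.normal_of_characteristic_of_normal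
  let Y : ℕ → Subgroup G := fun r =>
    (Subgroup.centralizer ((Cfsg.pCore r G).map (QuotientGroup.mk' (Φ r)) : Set (G ⧸ Φ r))).comap
      (QuotientGroup.mk' (Φ r))
  have hYn : ∀ r, (Y r).Normal := by
    intro r
    have h1 : ((Cfsg.pCore r G).map (QuotientGroup.mk' (Φ r))).Normal :=
      Subgroup.Normal.map (hMn r) _ (QuotientGroup.mk'_surjective _)
    have h2 : (Subgroup.centralizer ((Cfsg.pCore r G).map (QuotientGroup.mk' (Φ r)) : Set (G ⧸ Φ r))).Normal :=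
      inferInstance
    exact h2.comap _
  have hYmem : ∀ r y, y ∈ Y r ↔ ∀ m ∈ Cfsg.pCore r G, y * m * y⁻¹ * m⁻¹ ∈ Φ r := by
    intro r y
    constructor
    · intro hy m hm
      have h1 : QuotientGroup.mk' (Φ r) m * QuotientGroup.mk' (Φ r) y =
          QuotientGroup.mk' (Φ r) y * QuotientGroup.mk' (Φ r) m :=
        (Subgroup.mem_centralizer_iff.mp hy) _ ⟨m, hm, rfl⟩
      have h2 : QuotientGroup.mk' (Φ r) (y * m * y⁻¹ * m⁻¹) = 1 := by
        rw [map_mul, map_mul, map_mul, ← h1, map_inv, map_inv]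
        group
      exact (QuotientGroup.eq_one_iff _).mp h2
    · intro hy
      show QuotientGroup.mk' (Φ r) y ∈ Subgroup.centralizer _
      rw [Subgroup.mem_centralizer_iff]
      rintro _ ⟨m, hm, rfl⟩
      have h2 : QuotientGroup.mk' (Φ r) (y * m * y⁻¹ * m⁻¹) = 1 :=
        (QuotientGroup.eq_one_iff _).mpr (hy m hm)
      rw [map_mul, map_mul, map_mul, map_inv, map_inv, mul_inv_eq_one, mul_inv_eq_iff_eq_mul] at h2
      exact h2.symm
  let Z : Subgroup G := (Cfsg.pCore q (G ⧸ Cfsg.fittingSubgroup G)).comap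
      (QuotientGroup.mk' (Cfsg.fittingSubgroup G)) ⊓ ⨅ r : {r : ℕ // r.Prime ∧ r ≠ q}, Y r
  have hZn : Z.Normal := by
    have h1 : (⨅ r : {r : ℕ // r.Prime ∧ r ≠ q}, Y r).Normal :=
      Subgroup.normal_iInf_normal fun r => hYn r
    have h2 : ((Cfsg.pCore q (G ⧸ Cfsg.fittingSubgroup G)).comap
      (QuotientGroup.mk' (Cfsg.fittingSubgroup G))).Normal := hqn.comap _
    exact inferInstance
  have hxZ : x ∈ Z := by
    refine Subgroup.mem_inf.mpr ⟨hx, ?_⟩
    rw [Subgroup.mem_iInf]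
    intro r
    rw [hYmem]
    exact h r r.2.1 r.2.2
  refine Cfsg.Agent.OddOrderLocal.ActFitting.le_fitting_of_acts Z hZn ?_ hxZ
  intro r hr g hg
  by_cases hrq : r = q
  · subst hrq
    obtain ⟨k, hk⟩ := Cfsg.Agent.Lib.Cores.pCore_isPGroup (G := G ⧸ Cfsg.fittingSubgroup G) r ⟨_, hg.1⟩
    have hk' : g ^ r ^ k ∈ Cfsg.fittingSubgroup G := by
      have h1 := congrArg Subtype.val hk
      have h2 : QuotientGroup.mk' (Cfsg.fittingSubgroup G) (g ^ r ^ k) = 1 := by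
        rw [map_pow]; exact h1
      exact (QuotientGroup.eq_one_iff _).mp h2
    obtain ⟨n, hn⟩ := exists_pow_mem hr.out (g ^ r ^ k)
      (Subgroup.centralizer (Cfsg.pCore r G : Set G)) (by
        intro y hy hry
        rw [Subgroup.mem_centralizer_iff]
        intro m hm
        have hyF : y ∈ Cfsg.fittingSubgroup G := (Subgroup.zpowers_le.mpr hk') hy
        have hmF : m ∈ Cfsg.fittingSubgroup G := Cfsg.Agent.Lib.Cores.pCore_le_fittingSubgroup r hm
        apply Cfsg.Agent.OddOrderLocal.CNBasic.commute_of_mem_of_coprime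
          Cfsg.Agent.Lib.Cores.fittingSubgroup_isNilpotent hmF hyF
        obtain ⟨j, hj⟩ := Cfsg.Agent.Lib.Cores.pCore_isPGroup (G := G) r ⟨m, hm⟩
        have hj' : m ^ r ^ j = 1 := congrArg Subtype.val hj
        have h1 : orderOf m ∣ r ^ j := orderOf_dvd_of_pow_eq_one hj'
        exact Nat.Coprime.coprime_dvd_left h1
          (Nat.Coprime.pow_left _ ((Nat.Prime.coprime_iff_not_dvd hr.out).mpr hry)))
    refine ⟨k + n, ?_⟩
    rw [pow_add, pow_mul]
    exact hn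
  · apply exists_pow_mem hr.out
    intro y hy hry
    have hgY : g ∈ Y r := (Subgroup.mem_iInf.mp hg.2) ⟨r, hr.out, hrq⟩
    have hle := Cfsg.Agent.S0029.result (Subgroup.zpowers y) (Cfsg.pCore r G)
      (by
        rw [Subgroup.normalizer_eq_top_iff.mpr (hMn r)]
        exact le_top)
      (by
        rw [Nat.card_zpowers]
        have h1 : IsPGroup r (frattini (Cfsg.pCore r G)) :=
          (Cfsg.Agent.Lib.Cores.pCore_isPGroup (G := G) r).to_subgroup _
        obtain ⟨n, hn⟩ := (IsPGroup.iff_card (p := r)).mp h1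
        rw [hn]
        exact Nat.Coprime.pow_right _ ((Nat.Prime.coprime_iff_not_dvd hr.out).mpr hry).symm)
      (by
        intro a ha m hm
        have haY : a ∈ Y r := by
          have h1 : y ∈ Y r := (Subgroup.zpowers_le.mpr hgY) hy
          exact (Subgroup.zpowers_le.mpr h1) ha
        exact (hYmem r a).mp haY m hm)
    exact hle (Subgroup.mem_zpowers y)

end Cfsg.Agent.H851.PQ
end

-- part: H562/FpfSetup
section
/-!
# Groups with a group of order `f e` acting without fixed points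

`G` a solvable normal subgroup of the finite group `Γ`, `F` and `H` subgroups of prime orders `f` and `e`, `e ∣ f - 1`,
of orders prime to `|G|`, no nontrivial element of `G` centralised by `F` and `H`.
-/

set_option autoImplicit false

namespace Cfsg.Agent.H562.FpfSetup

open Cfsg Cfsg.Agent.H562.FpfCore Cfsg.Agent.H562.FpfThm Cfsg.Agent.OddOrderLocal.FrobAct
open Cfsg.Agent.Lib.Cores

variable {Γ : Type*} [Group Γ] [Finite Γ] (G : Subgroup Γ) [G.Normal]

/-- the Fitting subgroup of `G` as a subgroup of `Γ` -/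
def N : Subgroup Γ := (fittingSubgroup G).map G.subtype

instance N_normal : (N G).Normal := by
  have : (fittingSubgroup G).Characteristic := fittingSubgroup_characteristic
  unfold N
  infer_instance

omit [Finite Γ] [G.Normal] in
theorem N_le : N G ≤ G := Subgroup.map_subtype_le _

omit [Finite Γ] in
theorem mk_eq_one (x : G) : QuotientGroup.mk' (N G) (x : Γ) = 1 ↔ x ∈ fittingSubgroup G := by
  rw [QuotientGroup.mk'_apply, QuotientGroup.eq_one_iff]
  constructor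
  · rintro ⟨y, hy, hyx⟩
    have : y = x := Subtype.ext hyx
    rw [← this]; exact hy
  · intro h
    exact ⟨x, h, rfl⟩

/-- the image of `G` in `Γ / N` -/
def K2 : Subgroup (Γ ⧸ N G) := G.map (QuotientGroup.mk' (N G))

instance K2_normal : (K2 G).Normal :=
  Subgroup.Normal.map inferInstance _ (QuotientGroup.mk'_surjective _)

/-- the isomorphism of `G / Fit G` with its image -/
noncomputable def e : G ⧸ fittingSubgroup G ≃* K2 G := by
  refine MulEquiv.ofBijective (QuotientGroup.lift (fittingSubgroup G)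
    (((QuotientGroup.mk' (N G)).comp G.subtype).codRestrict (K2 G) (fun x => ⟨x, x.2, rfl⟩)) ?_) ⟨?_, ?_⟩
  · intro x hx
    rw [MonoidHom.mem_ker]
    apply Subtype.ext
    exact (mk_eq_one G x).2 hx
  · rw [← MonoidHom.ker_eq_bot_iff, eq_bot_iff]
    intro y hy
    obtain ⟨x, rfl⟩ := QuotientGroup.mk_surjective y
    rw [MonoidHom.mem_ker] at hy
    have h1 : QuotientGroup.mk' (N G) (x : Γ) = 1 := congrArg Subtype.val hy
    rw [Subgroup.mem_bot, QuotientGroup.eq_one_iff]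
    exact (mk_eq_one G x).1 h1
  · rintro ⟨_, x, hx, rfl⟩
    exact ⟨QuotientGroup.mk ⟨x, hx⟩, rfl⟩

omit [Finite Γ] in
theorem e_mk (x : G) : ((e G (QuotientGroup.mk x) : K2 G) : Γ ⧸ N G) = QuotientGroup.mk' (N G) (x : Γ) := rfl

omit [Finite Γ] in
theorem exists_pCore {q : ℕ} {y : K2 G} (hy : y ∈ pCore q (K2 G)) :
    ∃ x : G, QuotientGroup.mk' (N G) (x : Γ) = y ∧
      QuotientGroup.mk' (fittingSubgroup G) x ∈ pCore q (G ⧸ fittingSubgroup G) := by
  rw [← map_equiv_pCore (e G) q] at hy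
  obtain ⟨z, hz, rfl⟩ := hy
  obtain ⟨x, rfl⟩ := QuotientGroup.mk_surjective z
  exact ⟨x, (e_mk G x).symm, hz⟩

variable (r : ℕ)

instance pCore_char : (pCore r G).Characteristic := pCore_characteristic r

instance frat_char : (frattini (pCore r G)).Characteristic := inferInstance

/-- the action of `Γ` on the Frattini quotient of `O_r(G)` -/
noncomputable def phi0 : Γ →* MulAut (pCore r G ⧸ frattini (pCore r G)) :=
  (quotAut (frattini (pCore r G))).comp ((MulAut.characteristic (pCore r G)).comp MulAut.conjNormal)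

omit [Finite Γ] in
theorem phi0_mk (g : Γ) (m : pCore r G) : ∃ m' : pCore r G, ((m' : G) : Γ) = g * ((m : G) : Γ) * g⁻¹ ∧
    phi0 G r g (m : pCore r G ⧸ frattini (pCore r G)) = (m' : pCore r G ⧸ frattini (pCore r G)) := by
  refine ⟨MulAut.characteristic (pCore r G) (MulAut.conjNormal g) m, ?_, rfl⟩
  rfl

omit [G.Normal] in
theorem V_comm [Fact r.Prime] (u v : pCore r G ⧸ frattini (pCore r G)) : u * v = v * u := by
  obtain ⟨a, rfl⟩ := QuotientGroup.mk_surjective u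
  obtain ⟨b, rfl⟩ := QuotientGroup.mk_surjective v
  rw [← QuotientGroup.mk_mul, ← QuotientGroup.mk_mul, QuotientGroup.eq]
  apply Cfsg.Agent.Lib.FrattiniBasic.commutator_le_frattini (pCore_isPGroup (G := G) r)
  have h : (a * b)⁻¹ * (b * a) = b⁻¹ * a⁻¹ * b⁻¹⁻¹ * a⁻¹⁻¹ := by group
  rw [h, commutator_def]
  exact Subgroup.commutator_mem_commutator (Subgroup.mem_top _) (Subgroup.mem_top _)

omit [G.Normal] in
theorem V_pow [Fact r.Prime] (u : pCore r G ⧸ frattini (pCore r G)) : u ^ r = 1 := by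
  obtain ⟨a, rfl⟩ := QuotientGroup.mk_surjective u
  rw [← QuotientGroup.mk_pow, QuotientGroup.eq_one_iff]
  exact Cfsg.Agent.Lib.FrattiniBasic.pow_mem_frattini (pCore_isPGroup (G := G) r) a

/-- the Frattini quotient is commutative -/
@[reducible] noncomputable def commV [Fact r.Prime] : CommGroup (pCore r G ⧸ frattini (pCore r G)) :=
  { (inferInstance : Group (pCore r G ⧸ frattini (pCore r G))) with
    mul_comm := V_comm G r }

theorem phi0_N [Fact r.Prime] : N G ≤ (phi0 G r).ker := by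
  have h1 : fittingSubgroup G ≤ ((phi0 G r).ker).comap G.subtype := by
    rw [fittingSubgroup_eq_iSup_pCore]
    apply iSup_le
    intro p x hx
    have hp : Fact (p : ℕ).Prime := ⟨p.2⟩
    rw [Subgroup.mem_comap, MonoidHom.mem_ker]
    ext v
    obtain ⟨m, rfl⟩ := QuotientGroup.mk_surjective v
    obtain ⟨m', hm', hphi⟩ := phi0_mk G r (G.subtype x) m
    rw [hphi, MulAut.one_apply]
    by_cases hpr : (p : ℕ) = r
    · have hx' : x ∈ pCore r G := by rw [← hpr]; exact hx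
      have h2 : m' = ⟨x, hx'⟩ * m * ⟨x, hx'⟩⁻¹ := by
        apply Subtype.ext
        apply Subtype.ext
        exact hm'
      rw [h2, QuotientGroup.mk_mul, QuotientGroup.mk_mul, V_comm, QuotientGroup.mk_inv, inv_mul_cancel_left]
    · have hdis : Disjoint (pCore (p : ℕ) G) (pCore r G) := by
        rw [disjoint_iff]
        have : (Nat.card (pCore (p : ℕ) G)).Coprime (Nat.card (pCore r G)) :=
          IsPGroup.coprime_card_of_ne (p : ℕ) r hpr _ _ (pCore_isPGroup _) (pCore_isPGroup _)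
        exact (Subgroup.disjoint_of_coprime_natCard this).eq_bot
      have hcomm := Subgroup.commute_of_normal_of_disjoint _ _ (pCore_normal (G := G) (p : ℕ))
        (pCore_normal (G := G) r) hdis x m hx m.2
      have h2 : m' = m := by
        apply Subtype.ext
        apply Subtype.ext
        rw [hm']
        show ((x * (m : G) * x⁻¹ : G) : Γ) = _
        rw [hcomm.eq, mul_inv_cancel_right]
      rw [h2]
  intro x hx
  obtain ⟨y, hy, rfl⟩ := hx
  exact h1 hy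

/-- the action of `Γ / N` on the Frattini quotient of `O_r(G)` -/
noncomputable def phi [Fact r.Prime] : Γ ⧸ N G →* MulAut (pCore r G ⧸ frattini (pCore r G)) :=
  QuotientGroup.lift (N G) (phi0 G r) (fun _ hx => phi0_N G r hx)

theorem phi_mk [Fact r.Prime] (g : Γ) : phi G r (QuotientGroup.mk' (N G) g) = phi0 G r g := rfl

/-- a `q`-element modulo `Fit G` acting trivially on all the Frattini quotients -/
theorem eq_one_of_phi [Group.IsSolvable G] {q : ℕ} (hq : q.Prime) {y : K2 G} (hy : y ∈ pCore q (K2 G))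
    (h : ∀ r : ℕ, ∀ hr : Fact r.Prime, r ≠ q → r ∣ Nat.card G → ∀ v, phi G r (y : Γ ⧸ N G) v = v) :
    y = 1 := by
  obtain ⟨x, hxy, hx⟩ := exists_pCore G hy
  apply Subtype.ext
  rw [← hxy, OneMemClass.coe_one, mk_eq_one]
  apply Cfsg.Agent.H851.PQ.P5 hq x hx
  intro r hr hrq m hm
  have hr' : Fact r.Prime := ⟨hr⟩
  by_cases hrG : r ∣ Nat.card G
  · have h1 := h r hr' hrq hrG (QuotientGroup.mk ⟨m, hm⟩)
    rw [← hxy, phi_mk] at h1
    obtain ⟨m', hm', hphi⟩ := phi0_mk G r x ⟨m, hm⟩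
    rw [hphi, eq_comm, QuotientGroup.eq] at h1
    have h2 := (frattini (pCore r G)).mul_mem h1 (one_mem _)
    have hn : (frattini (pCore r G)).Normal := inferInstance
    have h3 := hn.conj_mem _ h1 ⟨m, hm⟩
    refine ⟨_, h3, ?_⟩
    apply Subtype.ext
    have h4 : (((⟨m, hm⟩ * (⟨m, hm⟩⁻¹ * m') * ⟨m, hm⟩⁻¹ : pCore r G) : G) : Γ) =
      (m : Γ) * ((m : Γ)⁻¹ * ((m' : G) : Γ)) * (m : Γ)⁻¹ := rfl
    show (((⟨m, hm⟩ * (⟨m, hm⟩⁻¹ * m') * ⟨m, hm⟩⁻¹ : pCore r G) : G) : Γ) = _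
    rw [h4, hm', Subgroup.coe_mul, Subgroup.coe_mul, Subgroup.coe_mul]
    simp only [Subgroup.coe_inv]
    group
  · have hm1 : m = 1 := by
      have h1 : Nat.card (pCore r G) = 1 := by
        obtain ⟨n, hn⟩ := IsPGroup.iff_card.1 (pCore_isPGroup (G := G) r)
        rcases Nat.eq_zero_or_pos n with h0 | h0
        · rw [hn, h0, pow_zero]
        · exfalso
          apply hrG
          have h2 : r ∣ Nat.card (pCore r G) := by rw [hn]; exact dvd_pow_self r h0.ne'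
          exact h2.trans (Subgroup.card_subgroup_dvd_card _)
      rw [Subgroup.card_eq_one] at h1
      rw [h1, Subgroup.mem_bot] at hm
      exact hm
    rw [hm1]
    simp [one_mem]

/-- the hypotheses on `F` and `H` -/
structure Hyp (G F H : Subgroup Γ) : Prop where
  hF : (Nat.card F).Prime
  hH : (Nat.card H).Prime
  hef : Nat.card H ∣ Nat.card F - 1
  hHF : ∀ h ∈ H, ∀ a ∈ F, h * a * h⁻¹ ∈ F
  hFG : ¬ Nat.card F ∣ Nat.card G
  hHG : ¬ Nat.card H ∣ Nat.card G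
  hfix : ∀ x ∈ G, (∀ a ∈ F, a * x = x * a) → (∀ a ∈ H, a * x = x * a) → x = 1

variable {G} {F H : Subgroup Γ}

omit [Finite Γ] in
theorem map_sub_normal {K : Subgroup G} [K.Characteristic] : (K.map G.subtype).Normal := inferInstance

/-- fixed points of `F` and `H` on a section of `G` -/
theorem Hyp.fix_mod (h : Hyp G F H) [Group.IsSolvable G] {Q D : Subgroup Γ} (hQG : Q ≤ G) (hDQ : D ≤ Q)
    [Q.Normal] [D.Normal] {y : Γ} (hy : y ∈ Q) (h1 : ∀ a ∈ F, a * y * a⁻¹ * y⁻¹ ∈ D)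
    (h2 : ∀ a ∈ H, a * y * a⁻¹ * y⁻¹ ∈ D) : y ∈ D := by
  have hQs : Group.IsSolvable Q :=
    Group.isSolvable_of_isSolvable_injective (f := Subgroup.inclusion hQG) (Subgroup.inclusion_injective hQG)
  have hdQ : Nat.card Q ∣ Nat.card G := Subgroup.card_dvd_of_le hQG
  apply fixA_gen (F := F) (H := H) (Q := Q) (le_top.trans_eq Q.normalizer_eq_top.symm)
    (le_top.trans_eq Q.normalizer_eq_top.symm) (le_normalizer_of_conj h.hHF)
    ((Nat.Prime.coprime_iff_not_dvd h.hF).2 (fun hd => h.hFG (hd.trans hdQ)))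
    ((Nat.Prime.coprime_iff_not_dvd h.hH).2 (fun hd => h.hHG (hd.trans hdQ))) hQs hDQ
    (le_top.trans_eq D.normalizer_eq_top.symm)
    (fun a _ y hy => Subgroup.Normal.conj_mem inferInstance y hy a)
    (fun a _ y hy => Subgroup.Normal.conj_mem inferInstance y hy a)
    (fun x hx => h.hfix x (hQG hx)) hy h1 h2

/-- no fixed points in the Frattini quotients -/
theorem Hyp.fix_V (h : Hyp G F H) [Group.IsSolvable G] (r : ℕ) [Fact r.Prime]
    (v : pCore r G ⧸ frattini (pCore r G)) (hF : ∀ a ∈ F.map (QuotientGroup.mk' (N G)), phi G r a v = v)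
    (hH : ∀ a ∈ H.map (QuotientGroup.mk' (N G)), phi G r a v = v) : v = 1 := by
  obtain ⟨m, rfl⟩ := QuotientGroup.mk_surjective v
  rw [QuotientGroup.eq_one_iff]
  let M : Subgroup Γ := (pCore r G).map G.subtype
  let L : Subgroup G := (frattini (pCore r G)).map (pCore r G).subtype
  have hLc : L.Characteristic := inferInstance
  let D : Subgroup Γ := L.map G.subtype
  have hDn : D.Normal := inferInstance
  have hMn : M.Normal := inferInstance
  have hDM : D ≤ M := Subgroup.map_mono (Subgroup.map_subtype_le _)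
  have hMG : M ≤ G := Subgroup.map_subtype_le _
  have hstep : ∀ a : Γ, phi0 G r a (QuotientGroup.mk m) = QuotientGroup.mk m →
      a * ((m : G) : Γ) * a⁻¹ * ((m : G) : Γ)⁻¹ ∈ D := by
    intro a ha
    obtain ⟨m', hm', hphi⟩ := phi0_mk G r a m
    rw [hphi, eq_comm, QuotientGroup.eq] at ha
    have hn : (frattini (pCore r G)).Normal := inferInstance
    have h3 := hn.conj_mem _ ha m
    refine ⟨_, ⟨_, h3, rfl⟩, ?_⟩
    have h4 : (((m * (m⁻¹ * m') * m⁻¹ : pCore r G) : G) : Γ) =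
      ((m : G) : Γ) * (((m : G) : Γ)⁻¹ * ((m' : G) : Γ)) * ((m : G) : Γ)⁻¹ := rfl
    show (((m * (m⁻¹ * m') * m⁻¹ : pCore r G) : G) : Γ) = _
    rw [h4, hm']
    group
  have hmem : ((m : G) : Γ) ∈ D := by
    apply h.fix_mod hMG hDM (y := ((m : G) : Γ)) ⟨m, m.2, rfl⟩
    · intro a ha
      apply hstep
      rw [← phi_mk]
      exact hF _ ⟨a, ha, rfl⟩
    · intro a ha
      apply hstep
      rw [← phi_mk]
      exact hH _ ⟨a, ha, rfl⟩
  obtain ⟨_, ⟨m', hm', rfl⟩, hmm⟩ := hmem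
  have : m' = m := Subtype.ext (Subtype.ext hmm)
  rw [← this]
  exact hm'

/-- no fixed points in `G / Fit G` -/
theorem Hyp.fix_K2 (h : Hyp G F H) [Group.IsSolvable G] {y : Γ ⧸ N G} (hy : y ∈ K2 G)
    (hF : ∀ a ∈ F.map (QuotientGroup.mk' (N G)), a * y = y * a)
    (hH : ∀ a ∈ H.map (QuotientGroup.mk' (N G)), a * y = y * a) : y = 1 := by
  obtain ⟨x, hx, rfl⟩ := hy
  rw [QuotientGroup.mk'_apply, QuotientGroup.eq_one_iff]
  have hcommut : ∀ a : Γ, QuotientGroup.mk' (N G) a * QuotientGroup.mk' (N G) x =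
      QuotientGroup.mk' (N G) x * QuotientGroup.mk' (N G) a → a * x * a⁻¹ * x⁻¹ ∈ N G := by
    intro a h
    rw [← QuotientGroup.eq_one_iff]
    show (QuotientGroup.mk' (N G)) (a * x * a⁻¹ * x⁻¹) = 1
    rw [map_mul, map_mul, map_mul, h, map_inv, map_inv, mul_inv_cancel_right, mul_inv_cancel]
  apply h.fix_mod le_rfl (N_le G) hx
  · intro a ha
    exact hcommut a (hF _ ⟨a, ha, rfl⟩)
  · intro a ha
    exact hcommut a (hH _ ⟨a, ha, rfl⟩)

omit [Finite Γ] in
theorem card_K2_dvd : Nat.card (K2 G) ∣ Nat.card G := Subgroup.card_map_dvd _ _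

theorem card_map_of_not_dvd {A : Subgroup Γ} (hA : (Nat.card A).Prime) (hAG : ¬ Nat.card A ∣ Nat.card G) :
    Nat.card (A.map (QuotientGroup.mk' (N G))) = Nat.card A := by
  have hdiv : Nat.card (A.map (QuotientGroup.mk' (N G))) ∣ Nat.card A := Subgroup.card_map_dvd _ _
  rcases (Nat.dvd_prime hA).1 hdiv with h | h
  · exfalso
    rw [Subgroup.card_eq_one, Subgroup.map_eq_bot_iff, QuotientGroup.ker_mk'] at h
    exact hAG ((Subgroup.card_dvd_of_le h).trans (Subgroup.card_dvd_of_le (N_le G)))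
  · exact h

/-- `G / Fit G` is nilpotent -/
theorem Hyp.nilpotent (h : Hyp G F H) [Group.IsSolvable G] : Group.IsNilpotent (G ⧸ fittingSubgroup G) := by
  set π := QuotientGroup.mk' (N G) with hπ
  have hKs : Group.IsSolvable (K2 G) :=
    Group.isSolvable_of_surjective (f := π.subgroupMap G) (π.subgroupMap_surjective G)
  have hcF := card_map_of_not_dvd h.hF h.hFG
  have hcH := card_map_of_not_dvd h.hH h.hHG
  have hHF' : ∀ x ∈ H.map π, ∀ a ∈ F.map π, x * a * x⁻¹ ∈ F.map π := by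
    rintro _ ⟨x, hx, rfl⟩ _ ⟨a, ha, rfl⟩
    exact ⟨x * a * x⁻¹, h.hHF x hx a ha, by rw [map_mul, map_mul, map_inv]⟩
  have hcopA : (Nat.card (H.map π ⊔ F.map π : Subgroup (Γ ⧸ N G))).Coprime (Nat.card (K2 G)) := by
    have hc : Nat.card (H.map π ⊔ F.map π : Subgroup (Γ ⧸ N G)) ∣ Nat.card (H.map π) * Nat.card (F.map π) :=
      Cfsg.Agent.OddOrderLocal.DecompBasic.card_sup_dvd (le_normalizer_of_conj hHF')
    rw [hcF, hcH] at hc
    apply Nat.Coprime.coprime_dvd_left hc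
    apply Nat.Coprime.coprime_dvd_right (card_K2_dvd (G := G))
    exact Nat.Coprime.mul_left ((Nat.Prime.coprime_iff_not_dvd h.hH).2 h.hHG)
      ((Nat.Prime.coprime_iff_not_dvd h.hF).2 h.hFG)
  have hK : Group.IsNilpotent (K2 G) := by
    apply Cfsg.Agent.H851.PQ.P4
    intro q t hq ht hqt
    have : Fact q.Prime := ⟨hq⟩
    have : Fact t.Prime := ⟨ht⟩
    obtain ⟨T₀, hT₀⟩ := Cfsg.Agent.S0023.result (H.map π ⊔ F.map π) (K2 G)
      (le_top.trans_eq (K2 G).normalizer_eq_top.symm) hcopA (Or.inr hKs) t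
    refine ⟨T₀, ?_⟩
    set Q : Subgroup (Γ ⧸ N G) := (pCore q (K2 G)).map (K2 G).subtype with hQdef
    set T : Subgroup (Γ ⧸ N G) := (T₀ : Subgroup (K2 G)).map (K2 G).subtype with hTdef
    have hcore : (pCore q (K2 G)).Characteristic := pCore_characteristic q
    have hQn : Q.Normal := inferInstance
    have hQK : Q ≤ K2 G := Subgroup.map_subtype_le _
    have hTK : T ≤ K2 G := Subgroup.map_subtype_le _
    have hQ : IsPGroup q Q := (pCore_isPGroup q).map _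
    have hT : IsPGroup t T := T₀.isPGroup'.map _
    intro x hx y hy
    -- trivial cases
    have htriv : ∀ {p : ℕ} {B : Subgroup (Γ ⧸ N G)}, p.Prime → IsPGroup p B → B ≤ K2 G → ∀ {z}, z ∈ B → z ≠ 1 →
        p ∣ Nat.card G := by
      intro p B hp hB hBK z hz hz1
      have : Fact p.Prime := ⟨hp⟩
      obtain ⟨n, hn⟩ := IsPGroup.iff_card.1 hB
      rcases Nat.eq_zero_or_pos n with h0 | h0
      · exfalso
        rw [h0, pow_zero, Subgroup.card_eq_one] at hn
        rw [hn, Subgroup.mem_bot] at hz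
        exact hz1 hz
      · have h2 : p ∣ Nat.card B := by rw [hn]; exact dvd_pow_self p h0.ne'
        exact (h2.trans (Subgroup.card_dvd_of_le hBK)).trans (card_K2_dvd (G := G))
    by_cases hx1 : x = 1
    · rw [hx1, one_mul, mul_one]
    by_cases hy1 : y = 1
    · rw [hy1, one_mul, mul_one]
    have hxQ : (x : Γ ⧸ N G) ∈ Q := ⟨x, hx, rfl⟩
    have hyT : (y : Γ ⧸ N G) ∈ T := ⟨y, hy, rfl⟩
    have hqG : q ∣ Nat.card G := htriv hq hQ hQK hxQ (fun hh => hx1 (Subtype.ext hh))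
    have htG : t ∣ Nat.card G := htriv ht hT hTK hyT (fun hh => hy1 (Subtype.ext hh))
    have hnorm : ∀ a ∈ H.map π ⊔ F.map π, ∀ z ∈ T, a * z * a⁻¹ ∈ T := by
      intro a ha z hz
      exact (Subgroup.mem_normalizer_iff.1 (hT₀ ha) z).1 hz
    have hQconj : ∀ a : Γ ⧸ N G, ∀ z ∈ Q, a * z * a⁻¹ ∈ Q := fun a z hz =>
      Subgroup.Normal.conj_mem hQn z hz a
    have key : x * y * x⁻¹ * y⁻¹ = 1 := by
      have hmem : x * y * x⁻¹ * y⁻¹ ∈ pCore q (K2 G) := by
        have h1 : x * y * x⁻¹ * y⁻¹ = x * (y * x⁻¹ * y⁻¹) := by group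
        rw [h1]
        exact (pCore q (K2 G)).mul_mem hx
          ((pCore_normal (G := K2 G) q).conj_mem _ (inv_mem hx) y)
      apply eq_one_of_phi G hq hmem
      intro r hr hrq hrG v
      have hneq : ∀ {p : ℕ}, p ∣ Nat.card G → p ≠ Nat.card F ∧ p ≠ Nat.card H :=
        fun hp => ⟨fun hh => h.hFG (hh ▸ hp), fun hh => h.hHG (hh ▸ hp)⟩
      have hcomm := commV G r
      exact @thmR_elem (Γ ⧸ N G) _ _ (pCore r G ⧸ frattini (pCore r G)) (commV G r) _ r hr (V_pow G r)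
        (phi G r) Q T (F.map π) (H.map π) q t hq ht hqt (by rw [hcF]; exact h.hF) (by rw [hcH]; exact h.hH)
        (by rw [hcF, hcH]; exact h.hef) hHF' (by rw [hcF]; exact (hneq hqG).1) (by rw [hcH]; exact (hneq hqG).2)
        (by rw [hcF]; exact (hneq htG).1) (by rw [hcH]; exact (hneq htG).2) hrq.symm
        (by rw [hcH]; exact (hneq hrG).2.symm) (by rw [hcF]; exact (hneq hrG).1.symm) hQ hT
        (fun a _ => hQconj a) (fun a _ => hQconj a) (fun a _ => hQconj a)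
        (fun a ha => hnorm a (Subgroup.mem_sup_right ha)) (fun a ha => hnorm a (Subgroup.mem_sup_left ha))
        (fun z hz => h.fix_K2 (hQK hz)) (fun z hz => h.fix_K2 (hTK hz)) (h.fix_V r) _
        (Subgroup.commutator_mem_commutator hxQ hyT) v
    have h2 : x * y = (x * y * x⁻¹ * y⁻¹) * (y * x) := by group
    rw [h2, key, one_mul]
  exact Group.nilpotent_of_mulEquiv (e G).symm

end Cfsg.Agent.H562.FpfSetup
end

-- part: H562/FpfFinal
section
/-!
# From an action of a nonabelian group of order `p q` to the setup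
-/

set_option autoImplicit false

namespace Cfsg.Agent.H562.FpfFinal

open Cfsg Cfsg.Agent.H562.FpfSetup Cfsg.Agent.H562.FpfWeights

/-- the structure of a nonabelian group of order `f e`, `e < f` -/
theorem exists_FH {A : Type*} [Group A] [Finite A] {f e : ℕ} (hf : f.Prime) (he : e.Prime) (hef : e < f)
    (hA : Nat.card A = f * e) (hAna : ¬ IsMulCommutative A) :
    ∃ F H : Subgroup A, Nat.card F = f ∧ Nat.card H = e ∧ F.Normal ∧ e ∣ f - 1 ∧ F ⊔ H = ⊤ ∧
      ¬ H ≤ Subgroup.centralizer (F : Set A) := by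
  have : Fact f.Prime := ⟨hf⟩
  have : Fact e.Prime := ⟨he⟩
  obtain ⟨F, hF⟩ : ∃ F : Subgroup A, Nat.card F = f := by
    obtain ⟨x, hx⟩ := exists_prime_orderOf_dvd_card' (G := A) f (by rw [hA]; exact dvd_mul_right _ _)
    exact ⟨Subgroup.zpowers x, by rw [Nat.card_zpowers, hx]⟩
  obtain ⟨x, hx⟩ := exists_prime_orderOf_dvd_card' (G := A) e (by rw [hA]; exact dvd_mul_left _ _)
  set H : Subgroup A := Subgroup.zpowers x with hHdef
  have hH : Nat.card H = e := by rw [Nat.card_zpowers, hx]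
  have hidx : F.index = e := by
    have := F.card_mul_index
    rw [hF, hA] at this
    exact Nat.eq_of_mul_eq_mul_left hf.pos this
  have hFn : F.Normal := by
    apply Subgroup.normal_of_index_eq_minFac_card
    rw [hidx, hA]
    symm
    have h1 := Nat.minFac_le_of_dvd he.two_le (dvd_mul_left e f)
    have h2 : (f * e).minFac.Prime := Nat.minFac_prime (by
      have := Nat.mul_le_mul hf.one_lt.le he.two_le
      omega)
    rcases (Nat.Prime.dvd_mul h2).1 (Nat.minFac_dvd (f * e)) with h3 | h3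
    · have := (Nat.prime_dvd_prime_iff_eq h2 hf).1 h3
      omega
    · exact (Nat.prime_dvd_prime_iff_eq h2 he).1 h3
  have hcop : (Nat.card F).Coprime (Nat.card H) := by
    rw [hF, hH]
    exact (Nat.coprime_primes hf he).2 hef.ne'
  have htop : F ⊔ H = ⊤ := by
    apply Subgroup.eq_top_of_le_card
    rw [hA]
    have h1 : Nat.card F ∣ Nat.card (F ⊔ H : Subgroup A) := Subgroup.card_dvd_of_le le_sup_left
    have h2 : Nat.card H ∣ Nat.card (F ⊔ H : Subgroup A) := Subgroup.card_dvd_of_le le_sup_right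
    have h3 := hcop.mul_dvd_of_dvd_of_dvd h1 h2
    rw [hF, hH] at h3
    exact Nat.le_of_dvd Nat.card_pos h3
  have hcyc : IsCyclic F := isCyclic_of_prime_card (p := f) hF
  have hxc : ¬ x ∈ Subgroup.centralizer (F : Set A) := by
    intro hxc
    apply hAna
    have hxF : ∀ a ∈ F, x * a = a * x := by
      intro a ha
      exact (Subgroup.mem_centralizer_iff.1 hxc a ha).symm
    have hFc : ∀ a ∈ F, ∀ b ∈ F, a * b = b * a := by
      intro a ha b hb
      have := hcyc.isMulCommutative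
      have h3 : (⟨a, ha⟩ : F) * ⟨b, hb⟩ = ⟨b, hb⟩ * ⟨a, ha⟩ := mul_comm' _ _
      exact congrArg Subtype.val h3
    have hc1 : F ≤ Subgroup.center A := by
      intro a ha
      rw [Subgroup.mem_center_iff]
      intro g
      have hg : g ∈ F ⊔ H := by rw [htop]; trivial
      have h4 : F ⊔ H ≤ Subgroup.centralizer {a} := by
        apply sup_le
        · intro b hb
          rw [Subgroup.mem_centralizer_singleton_iff]
          exact hFc b hb a ha
        · rw [hHdef, Subgroup.zpowers_le, Subgroup.mem_centralizer_singleton_iff]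
          exact hxF a ha
      exact Subgroup.mem_centralizer_singleton_iff.1 (h4 hg)
    have hc2 : H ≤ Subgroup.center A := by
      rw [hHdef, Subgroup.zpowers_le, Subgroup.mem_center_iff]
      intro g
      have hg : g ∈ F ⊔ H := by rw [htop]; trivial
      have h4 : F ⊔ H ≤ Subgroup.centralizer {x} := by
        apply sup_le
        · intro b hb
          rw [Subgroup.mem_centralizer_singleton_iff]
          exact (hxF b hb).symm
        · rw [hHdef, Subgroup.zpowers_le, Subgroup.mem_centralizer_singleton_iff]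
      exact Subgroup.mem_centralizer_singleton_iff.1 (h4 hg)
    have hc : (⊤ : Subgroup A) ≤ Subgroup.center A := by
      rw [← htop]; exact sup_le hc1 hc2
    refine ⟨⟨fun a b => ?_⟩⟩
    exact (Subgroup.mem_center_iff.1 (hc (Subgroup.mem_top b)) a)
  refine ⟨F, H, hF, hH, hFn, ?_, htop, fun hh => hxc (hh (Subgroup.mem_zpowers x))⟩
  have hcard : Nat.card (MulAut F) = f - 1 := by
    rw [IsCyclic.card_mulAut, hF, Nat.totient_prime hf]
  rw [← hcard]
  have h1 : orderOf (MulAut.conjNormal (H := F) x) ∣ e := by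
    rw [← hx]
    exact orderOf_map_dvd _ x
  rcases (Nat.dvd_prime he).1 h1 with h2 | h2
  · exfalso
    rw [orderOf_eq_one_iff] at h2
    apply hxc
    rw [Subgroup.mem_centralizer_iff]
    intro a ha
    have h3 := DFunLike.congr_fun h2 (⟨a, ha⟩ : F)
    have h4 := congrArg Subtype.val h3
    rw [MulAut.conjNormal_apply] at h4
    have h5 : x * a * x⁻¹ = a := h4
    exact (mul_inv_eq_iff_eq_mul.1 h5).symm
  · rw [← h2]
    exact orderOf_dvd_natCard _

section action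

variable {G A : Type*} [Group G] [Finite G] [Group A] [Finite A] [MulDistribMulAction A G]

/-- the semidirect product -/
abbrev Sd (G A : Type*) [Group G] [Group A] [MulDistribMulAction A G] : Type _ :=
  G ⋊[MulDistribMulAction.toMulAut A G] A

instance : Finite (Sd G A) := Finite.of_equiv _ (SemidirectProduct.equivProd (φ := MulDistribMulAction.toMulAut A G)).symm

/-- the normal subgroup `G` of the semidirect product -/
abbrev Gs (G A : Type*) [Group G] [Group A] [MulDistribMulAction A G] : Subgroup (Sd G A) :=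
  (SemidirectProduct.inl : G →* Sd G A).range

instance : (Gs G A).Normal := by
  unfold Gs
  rw [SemidirectProduct.range_inl_eq_ker_rightHom]
  infer_instance

/-- the isomorphism of `G` with its image -/
noncomputable def eG : G ≃* Gs G A := MonoidHom.ofInjective SemidirectProduct.inl_injective

/-- the hypotheses of the setup -/
theorem hyp {F H : Subgroup A} {f e : ℕ} (hf : f.Prime) (he : e.Prime) (hF : Nat.card F = f)
    (hH : Nat.card H = e) (hFn : F.Normal) (hef : e ∣ f - 1) (htop : F ⊔ H = ⊤)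
    (hfG : ¬ f ∣ Nat.card G) (heG : ¬ e ∣ Nat.card G) (hfpf : ∀ g : G, (∀ a : A, a • g = g) → g = 1) :
    Hyp (Gs G A) (F.map SemidirectProduct.inr) (H.map SemidirectProduct.inr) := by
  have hcF : Nat.card (F.map (SemidirectProduct.inr : A →* Sd G A)) = f := by
    rw [← hF]
    exact Nat.card_congr (F.equivMapOfInjective _ SemidirectProduct.inr_injective).toEquiv.symm
  have hcH : Nat.card (H.map (SemidirectProduct.inr : A →* Sd G A)) = e := by
    rw [← hH]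
    exact Nat.card_congr (H.equivMapOfInjective _ SemidirectProduct.inr_injective).toEquiv.symm
  have hcG : Nat.card (Gs G A) = Nat.card G := Nat.card_congr (eG (G := G) (A := A)).toEquiv.symm
  refine ⟨?_, ?_, ?_, ?_, ?_, ?_, ?_⟩
  · rw [hcF]; exact hf
  · rw [hcH]; exact he
  · rw [hcF, hcH]; exact hef
  · rintro _ ⟨h, hh, rfl⟩ _ ⟨a, ha, rfl⟩
    exact ⟨h * a * h⁻¹, hFn.conj_mem a ha h, by rw [map_mul, map_mul, map_inv]⟩
  · rw [hcF, hcG]; exact hfG
  · rw [hcH, hcG]; exact heG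
  · rintro _ ⟨g, rfl⟩ h1 h2
    have hst : ∀ a : A, (SemidirectProduct.inr a : Sd G A) * SemidirectProduct.inl g =
        SemidirectProduct.inl g * SemidirectProduct.inr a → a • g = g := by
      intro a ha
      have h3 := SemidirectProduct.inl_aut (φ := MulDistribMulAction.toMulAut A G) a g
      rw [ha, map_inv, mul_inv_cancel_right] at h3
      exact SemidirectProduct.inl_injective h3
    have h4 : (⊤ : Subgroup A) ≤ MulAction.stabilizer A g := by
      rw [← htop]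
      apply sup_le
      · intro a ha
        exact hst a (h1 _ ⟨a, ha, rfl⟩)
      · intro a ha
        exact hst a (h2 _ ⟨a, ha, rfl⟩)
    rw [hfpf g (fun a => h4 (Subgroup.mem_top a)), map_one]

theorem nilpotent_quot [Group.IsSolvable G] {F H : Subgroup A} {f e : ℕ} (hf : f.Prime) (he : e.Prime)
    (hF : Nat.card F = f)
    (hH : Nat.card H = e) (hFn : F.Normal) (hef : e ∣ f - 1) (htop : F ⊔ H = ⊤)
    (hfG : ¬ f ∣ Nat.card G) (heG : ¬ e ∣ Nat.card G) (hfpf : ∀ g : G, (∀ a : A, a • g = g) → g = 1) :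
    Group.IsNilpotent (G ⧸ fittingSubgroup G) := by
  have h := hyp hf he hF hH hFn hef htop hfG heG hfpf
  have hs : Group.IsSolvable (Gs G A) :=
    Group.isSolvable_of_surjective (f := (eG (G := G) (A := A)).toMonoidHom) (eG (G := G) (A := A)).surjective
  have h1 := h.nilpotent
  exact Group.nilpotent_of_mulEquiv (QuotientGroup.congr (fittingSubgroup G) (fittingSubgroup (Gs G A))
    (eG (G := G) (A := A)) (Cfsg.Agent.Lib.Cores.map_equiv_fittingSubgroup _)).symm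

end action

end Cfsg.Agent.H562.FpfFinal
end
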